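/-
Linear codes over coded fields: enumeration, membership test, supports, monomial automorphisms.
-/
import Cfsg.Agent.H4.Mat
import Cfsg.Prelude.Def_SporadicCombinatorics

set_option autoImplicit false
set_option maxRecDepth 100000

open scoped Pointwise

namespace Cfsg.Agent.H4

theorem beq_false_iff {a b : ℕ} : Nat.beq a b = false ↔ a ≠ b :=
  ⟨Nat.ne_of_beq_eq_false, fun h => Bool.eq_false_iff.mpr fun h' => h (Nat.eq_of_beq_eq_true h')⟩

/-- The base `b` digits of `m`, shifted by `s`, packed with `w` bits each. -/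
def dig (b w k s m : ℕ) : ℕ :=
  pack w k fun j => Nat.add (Nat.mod (Nat.div m (Nat.pow b j)) b) s

theorem img_dig {b w k s : ℕ} (hb : 0 < b) (h : b + s ≤ 2 ^ w) (m : ℕ) {j : ℕ} (hj : j < k) :
    img w (dig b w k s m) j = m / b ^ j % b + s :=
  img_pack w k _ (fun _ _ => lt_of_lt_of_le (Nat.add_lt_add_right (Nat.mod_lt _ hb) s) h) j hj

theorem exists_digits (b k : ℕ) (f : Fin k → ℕ) (hf : ∀ j, f j < b) :
    ∃ m, m < b ^ k ∧ ∀ j : Fin k, m / b ^ (j : ℕ) % b = f j := by
  refine ⟨_, (finFunctionFinEquiv fun j => (⟨f j, hf j⟩ : Fin b)).2, fun j => ?_⟩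
  have := finFunctionFinEquiv_symm_apply_val (finFunctionFinEquiv fun j => (⟨f j, hf j⟩ : Fin b)) j
  rw [Equiv.symm_apply_apply] at this
  exact this.symm

theorem digits_inj {b k m m' : ℕ} (hm : m < b ^ k) (hm' : m' < b ^ k)
    (h : ∀ j : Fin k, m / b ^ (j : ℕ) % b = m' / b ^ (j : ℕ) % b) : m = m' := by
  have : finFunctionFinEquiv.symm (⟨m, hm⟩ : Fin (b ^ k)) = finFunctionFinEquiv.symm ⟨m', hm'⟩ :=
    funext fun j => Fin.ext (by
      rw [finFunctionFinEquiv_symm_apply_val, finFunctionFinEquiv_symm_apply_val]; exact h j)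
  exact congrArg Fin.val (finFunctionFinEquiv.symm.injective this)

namespace Ops

variable (O : Ops)

/-- The combination of the rows of `B` with coefficients `x`. -/
def lc (w n k B x : ℕ) : ℕ :=
  pack w n fun i => O.sum k fun j => O.mul (img w x j) (img w B (Nat.add (Nat.mul n j) i))

/-- The entries of `v` at the information positions. -/
def ext (w k I v : ℕ) : ℕ := pack w k fun j => img w v (img (nat_lit 8) I j)

/-- Membership test for a systematic code. -/
def inCode (w n k B I v : ℕ) : Bool :=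
  allLt n fun i => Nat.beq (img w v i) (img w (O.lc w n k B (ext w k I v)) i)

/-- The generator matrix is systematic. -/
def sysOK (q w n k B I : ℕ) : Bool :=
  allLt k fun j => band (allLt n fun i => Nat.blt (img w B (n * j + i)) q)
    (band (Nat.blt (img 8 I j) n) (allLt k fun j' =>
      Nat.beq (img w B (n * j' + img 8 I j)) (b2n (Nat.beq j' j))))

/-- The code word number `m`. -/
def cwd (q w n k B m : ℕ) : ℕ := O.lc w n k B (dig q w k 0 m)

/-- Row `j` of the generator matrix. -/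
def rowc (w n B j : ℕ) : ℕ := pack w n fun i => img w B (Nat.add (Nat.mul n j) i)

/-- The support of a vector code, as a mask. -/
def supp (w n v : ℕ) : ℕ :=
  orLt n fun i => Nat.shiftLeft (b2n (bnot (Nat.beq (img w v i) 0))) i

/-- A monomial map on codes; `pi` is the code of the inverse permutation. -/
def mon (w n u pi c v : ℕ) : ℕ := pack w n fun i => O.mul (img w c i) (img w v (img u pi i))

/-- The monomial map preserves the code. -/
def monOK (w n k B I u p c : ℕ) : Bool :=
  allLt k fun j => O.inCode w n k B I (O.mon w n u (invc n u p) c (rowc w n B j))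

end Ops

namespace FC

open Ops

variable {F : Type*} [Field F] {q w : ℕ} {O : Ops} (K : FC F q w O)
  {α : Type*} {n u : ℕ} (E : Enc α n u)

/-- The vector described by a code. -/
def vec (c : ℕ) : α → F := fun a => K.val (img w c (E.ix a))

/-- Row `j` of the generator matrix. -/
def row (B j : ℕ) : α → F := fun a => K.val (img w B (n * j + E.ix a))

/-- The span of the rows. -/
def code (k B : ℕ) : Submodule F (α → F) := Submodule.span F (Set.range fun j : Fin k => K.row E B j)

theorem okC_iff {m c : ℕ} : okC q w m c = true ↔ ∀ i, i < m → img w c i < q := by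
  simp only [okC, allLt_iff, Nat.blt_eq]

theorem val_eq_zero {a : ℕ} (ha : a < q) : K.val a = 0 ↔ a = 0 :=
  ⟨fun h => K.inj _ _ ha K.pos (h.trans K.val_zero.symm), fun h => h ▸ K.val_zero⟩

variable {k B I : ℕ}

theorem sysOK_spec (h : sysOK q w n k B I = true) : (∀ j, j < k → ∀ i, i < n →
    img w B (n * j + i) < q) ∧ (∀ j, j < k → img 8 I j < n) ∧ ∀ j, j < k → ∀ j', j' < k →
      img w B (n * j' + img 8 I j) = if j' = j then 1 else 0 := by
  simp only [sysOK, allLt_iff, band_eq, Bool.and_eq_true, Nat.blt_eq, Nat.beq_eq, b2n_eq] at h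
  exact ⟨fun j hj => (h j hj).1, fun j hj => (h j hj).2.1, fun j hj => (h j hj).2.2⟩

include K in
theorem img_lc (h : sysOK q w n k B I = true) {x : ℕ} (hx : ∀ j, j < k → img w x j < q) {i : ℕ}
    (hi : i < n) :
    img w (O.lc w n k B x) i = O.sum k fun j => O.mul (img w x j) (img w B (n * j + i)) :=
  img_pack w n _ (fun t ht => lt_of_lt_of_le (K.sum_spec k _ fun j hj =>
    K.mul_lt _ _ (hx j hj) ((sysOK_spec h).1 j hj t ht)).1 K.le_pow) i hi

include K in
theorem lc_lt (h : sysOK q w n k B I = true) {x : ℕ} (hx : ∀ j, j < k → img w x j < q) {i : ℕ}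
    (hi : i < n) : img w (O.lc w n k B x) i < q := by
  rw [K.img_lc h hx hi]
  exact (K.sum_spec k _ fun j hj => K.mul_lt _ _ (hx j hj) ((sysOK_spec h).1 j hj i hi)).1

theorem vec_lc (h : sysOK q w n k B I = true) {x : ℕ} (hx : ∀ j, j < k → img w x j < q) :
    K.vec E (O.lc w n k B x) = ∑ j : Fin k, K.val (img w x j) • K.row E B j := by
  funext a
  rw [vec, K.img_lc h hx (E.ix_lt a), (K.sum_spec k _ fun j hj =>
    K.mul_lt _ _ (hx j hj) ((sysOK_spec h).1 j hj _ (E.ix_lt a))).2, Finset.sum_apply]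
  exact Finset.sum_congr rfl fun j _ =>
    K.val_mul _ _ (hx j j.2) ((sysOK_spec h).1 j j.2 _ (E.ix_lt a))

theorem vec_lc_mem (h : sysOK q w n k B I = true) {x : ℕ} (hx : ∀ j, j < k → img w x j < q) :
    K.vec E (O.lc w n k B x) ∈ K.code E k B := by
  rw [K.vec_lc E h hx]
  exact Submodule.sum_mem _ fun j _ => Submodule.smul_mem _ _ (Submodule.subset_span ⟨j, rfl⟩)

theorem vec_lc_mem' (h : ∀ j, j < k → ∀ i, i < n → img w B (n * j + i) < q) {x : ℕ}
    (hx : ∀ j, j < k → img w x j < q) : K.vec E (O.lc w n k B x) ∈ K.code E k B := by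
  have : K.vec E (O.lc w n k B x) = ∑ j : Fin k, K.val (img w x j) • K.row E B j := by
    funext a
    rw [vec, lc, img_pack w n _ (fun t ht => lt_of_lt_of_le (K.sum_spec k _ fun j hj =>
      K.mul_lt _ (img w B (Nat.add (Nat.mul n j) t)) (hx j hj) (h j hj t ht)).1 K.le_pow) _ (E.ix_lt a),
      (K.sum_spec k _ fun j hj => K.mul_lt _ (img w B (Nat.add (Nat.mul n j) (E.ix a))) (hx j hj)
        (h j hj _ (E.ix_lt a))).2, Finset.sum_apply]
    exact Finset.sum_congr rfl fun j _ => K.val_mul _ _ (hx j j.2) (h j j.2 _ (E.ix_lt a))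
  rw [this]
  exact Submodule.sum_mem _ fun j _ => Submodule.smul_mem _ _ (Submodule.subset_span ⟨j, rfl⟩)

theorem sum_info (h : sysOK q w n k B I = true) (f : Fin k → F) (j : Fin k) :
    (∑ j' : Fin k, f j' • K.row E B j') (E.pt (img 8 I j)) = f j := by
  rw [Finset.sum_apply, Finset.sum_eq_single j]
  · rw [Pi.smul_apply, row, E.ix_pt _ ((sysOK_spec h).2.1 j j.2), (sysOK_spec h).2.2 j j.2 j j.2,
      if_pos rfl, K.val_one, smul_eq_mul, mul_one]
  · intro j' _ hj
    rw [Pi.smul_apply, row, E.ix_pt _ ((sysOK_spec h).2.1 j j.2), (sysOK_spec h).2.2 j j.2 j' j'.2,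
      if_neg (fun h => hj (Fin.ext h)), K.val_zero, smul_zero]
  · simp

theorem eq_sum_of_mem (h : sysOK q w n k B I = true) {x : α → F} (hx : x ∈ K.code E k B) :
    x = ∑ j : Fin k, x (E.pt (img 8 I j)) • K.row E B j := by
  obtain ⟨f, rfl⟩ := (Submodule.mem_span_range_iff_exists_fun F).mp hx
  simp only [K.sum_info E h f]

theorem eq_code (h : sysOK q w n k B I = true) (C : Submodule F (α → F))
    (h1 : ∀ j : Fin k, K.row E B j ∈ C)
    (h2 : ∀ x ∈ C, (∀ j : Fin k, x (E.pt (img 8 I j)) = 0) → x = 0) : C = K.code E k B := by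
  have h3 : K.code E k B ≤ C := Submodule.span_le.mpr (by rintro _ ⟨j, rfl⟩; exact h1 j)
  refine le_antisymm (fun x hx => ?_) h3
  have h4 : ∑ j : Fin k, x (E.pt (img 8 I j)) • K.row E B j ∈ K.code E k B :=
    Submodule.sum_mem _ fun j _ => Submodule.smul_mem _ _ (Submodule.subset_span ⟨j, rfl⟩)
  have h5 := h2 _ (C.sub_mem hx (h3 h4)) fun j => by
    rw [Pi.sub_apply, K.sum_info E h (fun j => x (E.pt (img 8 I j))), sub_self]
  rwa [sub_eq_zero.mp h5]

include K in
theorem img_ext (h : sysOK q w n k B I = true) {v : ℕ} (hv : ∀ i, i < n → img w v i < q) {j : ℕ}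
    (hj : j < k) : img w (ext w k I v) j = img w v (img 8 I j) :=
  img_pack w k _ (fun t ht => lt_of_lt_of_le (hv _ ((sysOK_spec h).2.1 t ht)) K.le_pow) j hj

theorem vec_eq_iff {v v' : ℕ} (hv : ∀ i, i < n → img w v i < q) (hv' : ∀ i, i < n → img w v' i < q) :
    K.vec E v = K.vec E v' ↔ ∀ i, i < n → img w v i = img w v' i := by
  constructor
  · intro h i hi
    have := congrFun h (E.pt i)
    rw [vec, vec, E.ix_pt _ hi] at this
    exact K.inj _ _ (hv i hi) (hv' i hi) this
  · intro h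
    funext a
    rw [vec, vec, h _ (E.ix_lt a)]

theorem vec_mem_iff (h : sysOK q w n k B I = true) {v : ℕ} (hv : ∀ i, i < n → img w v i < q) :
    K.vec E v ∈ K.code E k B ↔ O.inCode w n k B I v = true := by
  have h1 : ∀ j, j < k → img w (ext w k I v) j < q := fun j hj => by
    rw [K.img_ext h hv hj]; exact hv _ ((sysOK_spec h).2.1 j hj)
  simp only [inCode, allLt_iff, Nat.beq_eq]
  rw [← K.vec_eq_iff E hv fun i hi => K.lc_lt h h1 hi]
  refine ⟨fun h2 => ?_, fun h2 => h2 ▸ K.vec_lc_mem E h h1⟩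
  rw [K.vec_lc E h h1, K.eq_sum_of_mem E h h2]
  exact Finset.sum_congr rfl fun j _ => by
    rw [K.img_ext h hv j.2, vec, E.ix_pt _ ((sysOK_spec h).2.1 j j.2)]

include K in
theorem dig_lt (m : ℕ) : ∀ j, j < k → img w (dig q w k 0 m) j < q := fun j hj => by
  rw [img_dig K.pos K.le_pow m hj]; exact Nat.mod_lt _ K.pos

include K in
theorem cwd_lt (h : sysOK q w n k B I = true) (m : ℕ) :
    ∀ i, i < n → img w (O.cwd q w n k B m) i < q := fun _ hi => K.lc_lt h (K.dig_lt m) hi

theorem vec_cwd_mem (h : sysOK q w n k B I = true) (m : ℕ) :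
    K.vec E (O.cwd q w n k B m) ∈ K.code E k B := K.vec_lc_mem E h (K.dig_lt m)

theorem exists_cwd (h : sysOK q w n k B I = true) (hs : ∀ x, ∃ a, a < q ∧ K.val a = x)
    {x : α → F} (hx : x ∈ K.code E k B) : ∃ m, m < q ^ k ∧ K.vec E (O.cwd q w n k B m) = x := by
  choose f hf1 hf2 using hs
  obtain ⟨m, hm, h1⟩ := exists_digits q k (fun j => f (x (E.pt (img 8 I j)))) fun j => hf1 _
  refine ⟨m, hm, ?_⟩
  rw [cwd, K.vec_lc E h (K.dig_lt m)]
  conv_rhs => rw [K.eq_sum_of_mem E h hx]
  exact Finset.sum_congr rfl fun j _ => by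
    rw [img_dig K.pos K.le_pow m j.2, add_zero, h1, hf2]

theorem cwd_inj (h : sysOK q w n k B I = true) {m m' : ℕ} (hm : m < q ^ k) (hm' : m' < q ^ k)
    (H : K.vec E (O.cwd q w n k B m) = K.vec E (O.cwd q w n k B m')) : m = m' := by
  refine digits_inj hm hm' fun j => ?_
  have h1 := congrFun H (E.pt (img 8 I j))
  rw [cwd, cwd, K.vec_lc E h (K.dig_lt m), K.vec_lc E h (K.dig_lt m'),
    K.sum_info E h (fun j => K.val (img w (dig q w k 0 m) j)),
    K.sum_info E h (fun j => K.val (img w (dig q w k 0 m') j))] at h1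
  have h2 := K.inj _ _ (K.dig_lt m j j.2) (K.dig_lt m' j j.2) h1
  rwa [img_dig K.pos K.le_pow m j.2, img_dig K.pos K.le_pow m' j.2] at h2

theorem ncard_code (h : sysOK q w n k B I = true) (hs : ∀ x, ∃ a, a < q ∧ K.val a = x)
    {A : Set (α → F)} (p : ℕ → Bool) (hA : A ⊆ K.code E k B)
    (hp : ∀ v, (∀ i, i < n → img w v i < q) → K.vec E v ∈ K.code E k B →
      (K.vec E v ∈ A ↔ p v = true)) :
    A.ncard = countLt (q ^ k) fun m => p (O.cwd q w n k B m) := by
  rw [countLt_eq, ← Set.ncard_coe_finset]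
  symm
  apply Set.ncard_congr (fun m _ => K.vec E (O.cwd q w n k B m))
  · intro x hx
    simp only [Finset.coe_filter, Finset.mem_range, Set.mem_ofPred_eq] at hx
    exact (hp _ (K.cwd_lt h x) (K.vec_cwd_mem E h x)).mpr hx.2
  · intro x y hx hy H
    simp only [Finset.coe_filter, Finset.mem_range, Set.mem_ofPred_eq] at hx hy
    exact K.cwd_inj E h hx.1 hy.1 H
  · intro s hs'
    obtain ⟨x, hx, rfl⟩ := K.exists_cwd E h hs (hA hs')
    refine ⟨x, ?_, rfl⟩
    simp only [Finset.coe_filter, Finset.mem_range, Set.mem_ofPred_eq]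
    exact ⟨hx, (hp _ (K.cwd_lt h x) (K.vec_cwd_mem E h x)).mp hs'⟩

theorem card_code (h : sysOK q w n k B I = true) (hs : ∀ x, ∃ a, a < q ∧ K.val a = x) :
    Nat.card (K.code E k B) = q ^ k := by
  have := K.ncard_code E h hs (A := K.code E k B) (fun _ => true) subset_rfl fun v _ h => by
    simpa using h
  rw [countLt_eq] at this
  rw [← SetLike.coe_sort_coe, Nat.card_coe_set_eq, this]
  simp

theorem testBit_supp (v : ℕ) {i : ℕ} (hi : i < n) :
    (supp w n v).testBit i = true ↔ img w v i ≠ 0 := by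
  rw [supp, testBit_orLt]
  constructor
  · rintro ⟨j, hj, h⟩
    rw [b2n_eq, show ∀ a b, Nat.shiftLeft a b = a <<< b from fun _ _ => rfl] at h
    split_ifs at h with h1
    · rw [Nat.one_shiftLeft, Nat.testBit_two_pow, decide_eq_true_eq] at h
      simpa [h, beq_false_iff] using h1
    · simp at h
  · intro h
    refine ⟨i, hi, ?_⟩
    rw [b2n_eq, show ∀ a b, Nat.shiftLeft a b = a <<< b from fun _ _ => rfl, if_pos (by simpa [beq_false_iff] using h),
      Nat.one_shiftLeft, Nat.testBit_two_pow_self]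

theorem filter_vec [Fintype α] [DecidableEq F] {v : ℕ} (hv : ∀ i, i < n → img w v i < q) :
    (Finset.univ.filter fun a => K.vec E v a ≠ 0) = E.ofMask (supp w n v) := by
  ext a
  rw [Finset.mem_filter, Enc.mem_ofMask, testBit_supp _ (E.ix_lt a), vec, Ne,
    K.val_eq_zero (hv _ (E.ix_lt a))]
  simp

theorem vec_rowc (h : sysOK q w n k B I = true) {j : ℕ} (hj : j < k) :
    (∀ i, i < n → img w (rowc w n B j) i < q) ∧ K.vec E (rowc w n B j) = K.row E B j := by
  have h1 : ∀ i, i < n → img w (rowc w n B j) i = img w B (n * j + i) := fun i hi =>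
    img_pack w n _ (fun t ht => lt_of_lt_of_le ((sysOK_spec h).1 j hj t ht) K.le_pow) i hi
  exact ⟨fun i hi => h1 i hi ▸ (sysOK_spec h).1 j hj i hi,
    funext fun a => congrArg K.val (h1 _ (E.ix_lt a))⟩

theorem vec_mon {σ : Equiv.Perm α} {p : ℕ} (hσ : E.Rep σ p) {cu : α → Fˣ} {c : ℕ}
    (hc : ∀ i, i < n → img w c i < q) (hcu : ∀ a, (cu a : F) = K.vec E c a) {v : ℕ}
    (hv : ∀ i, i < n → img w v i < q) :
    (∀ i, i < n → img w (O.mon w n u (invc n u p) c v) i < q) ∧
      K.vec E (O.mon w n u (invc n u p) c v) = monomialMap σ cu (K.vec E v) := by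
  have h0 : ∀ i, i < n → O.mul (img w c i) (img w v (img u (invc n u p) i)) < q := fun i hi =>
    K.mul_lt _ _ (hc i hi) (hv _ (hσ.inv.img_lt hi))
  have h1 : ∀ i, i < n → img w (O.mon w n u (invc n u p) c v) i =
      O.mul (img w c i) (img w v (img u (invc n u p) i)) := fun i hi =>
    img_pack w n _ (fun t ht => lt_of_lt_of_le (h0 t ht) K.le_pow) i hi
  refine ⟨fun i hi => h1 i hi ▸ h0 i hi, funext fun a => ?_⟩
  rw [vec, h1 _ (E.ix_lt a), K.val_mul _ _ (hc _ (E.ix_lt a)) (hv _ (hσ.inv.img_lt (E.ix_lt a))),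
    monomialMap, hcu, ← hσ.inv a]
  rfl

theorem monOK_iff (h : sysOK q w n k B I = true) {σ : Equiv.Perm α} {p : ℕ} (hσ : E.Rep σ p)
    {cu : α → Fˣ} {c : ℕ} (hc : ∀ i, i < n → img w c i < q) (hcu : ∀ a, (cu a : F) = K.vec E c a) :
    (∀ x ∈ K.code E k B, monomialMap σ cu x ∈ K.code E k B) ↔ O.monOK w n k B I u p c = true := by
  rw [monOK, allLt_iff]
  constructor
  · intro H j hj
    obtain ⟨h1, h2⟩ := K.vec_rowc E h hj
    obtain ⟨h3, h4⟩ := K.vec_mon E hσ hc hcu h1
    rw [← K.vec_mem_iff E h h3, h4, h2]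
    exact H _ (Submodule.subset_span ⟨⟨j, hj⟩, rfl⟩)
  · intro H x hx
    induction hx using Submodule.span_induction with
    | mem x hx =>
      obtain ⟨j, rfl⟩ := hx
      obtain ⟨h1, h2⟩ := K.vec_rowc E h j.2
      obtain ⟨h3, h4⟩ := K.vec_mon E hσ hc hcu h1
      have := (K.vec_mem_iff E h h3).mpr (H j j.2)
      rwa [h4, h2] at this
    | zero =>
      have : monomialMap σ cu (0 : α → F) = 0 := funext fun a => mul_zero _
      rw [this]; exact Submodule.zero_mem _
    | add x y _ _ hx hy =>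
      have : monomialMap σ cu (x + y) = monomialMap σ cu x + monomialMap σ cu y :=
        funext fun a => mul_add _ _ _
      exact this ▸ Submodule.add_mem _ hx hy
    | smul a x _ hx =>
      have : monomialMap σ cu (a • x) = a • monomialMap σ cu x :=
        funext fun b => mul_left_comm _ _ _
      exact this ▸ Submodule.smul_mem _ a hx

/-- Every vector of units has a code among the shifted digit vectors. -/
theorem exists_units (hs : ∀ x, ∃ a, a < q ∧ K.val a = x) (cu : α → Fˣ) :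
    ∃ m, m < (q - 1) ^ n ∧ (∀ i, i < n → img w (dig (q - 1) w n 1 m) i < q) ∧
      ∀ a, (cu a : F) = K.vec E (dig (q - 1) w n 1 m) a := by
  choose f hf1 hf2 using hs
  have h1 := K.one_lt
  have h2 := K.le_pow
  have h3 : ∀ a, f (cu a) ≠ 0 := fun a h => (cu a).ne_zero (by rw [← hf2 (cu a), h, K.val_zero])
  obtain ⟨m, hm, h4⟩ := exists_digits (q - 1) n (fun j => f (cu (E.pt j)) - 1) fun j => by
    have := hf1 (cu (E.pt j)); have := h3 (E.pt j); omega
  refine ⟨m, hm, fun i hi => ?_, fun a => ?_⟩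
  · rw [img_dig (by omega) (by omega) m hi]
    have := Nat.mod_lt (m / (q - 1) ^ i) (by omega : 0 < q - 1)
    omega
  · rw [vec, img_dig (by omega) (by omega) m (E.ix_lt a), h4 ⟨_, E.ix_lt a⟩]
    simp only [E.pt_ix]
    rw [Nat.sub_add_cancel (Nat.pos_of_ne_zero (h3 a)), hf2]

/-- The vector of units described by a code with nonzero entries. -/
theorem exists_units_of {c : ℕ}
    (h : (allLt n fun i => band (Nat.blt 0 (img w c i)) (Nat.blt (img w c i) q)) = true) :
    (∀ i, i < n → img w c i < q) ∧ ∃ cu : α → Fˣ, ∀ a, (cu a : F) = K.vec E c a := by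
  simp only [allLt_iff, band_eq, Bool.and_eq_true, Nat.blt_eq] at h
  exact ⟨fun i hi => (h i hi).2, fun a => Units.mk0 (K.vec E c a) fun h1 =>
    (h _ (E.ix_lt a)).1.ne' ((K.val_eq_zero (h _ (E.ix_lt a)).2).mp h1), fun _ => rfl⟩

end FC

/-! ### The group of monomial automorphisms -/

section monomial

variable {α F : Type*} [Field F] (C : Submodule F (α → F))

theorem monomialMap_comp (σ τ : Equiv.Perm α) (c d : α → Fˣ) (x : α → F) :
    monomialMap σ c (monomialMap τ d x) = monomialMap (σ * τ) (fun a => c a * d (σ.symm a)) x := by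
  funext a
  simp only [monomialMap, Units.val_mul, mul_assoc]
  rfl

theorem monomialMap_one (x : α → F) : monomialMap 1 1 x = x :=
  funext fun _ => one_mul _

theorem monomial_inv [Finite C] {σ : Equiv.Perm α} {c : α → Fˣ}
    (h : ∀ x ∈ C, monomialMap σ c x ∈ C) :
    ∀ x ∈ C, monomialMap σ⁻¹ (fun a => (c (σ a))⁻¹) x ∈ C := by
  have h1 : ∀ x, monomialMap σ⁻¹ (fun a => (c (σ a))⁻¹) (monomialMap σ c x) = x := fun x => by
    funext a
    show ((c (σ a))⁻¹ : Fˣ) * (c (σ a) * x (σ.symm (σ a))) = x a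
    simp
  have h2 : Function.Injective fun x : C => (⟨monomialMap σ c x, h x x.2⟩ : C) := fun x y hxy =>
    Subtype.ext (by rw [← h1 x, ← h1 y, show monomialMap σ c x = monomialMap σ c y from
      congrArg Subtype.val hxy])
  intro x hx
  obtain ⟨y, hy⟩ := Finite.surjective_of_injective h2 ⟨x, hx⟩
  rw [← show monomialMap σ c y = x from congrArg Subtype.val hy, h1]
  exact y.2

/-- The permutation parts of the monomial automorphisms. -/
def monPerm [Finite C] : Subgroup (Equiv.Perm α) where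
  carrier := {σ | ∃ c : α → Fˣ, ∀ x ∈ C, monomialMap σ c x ∈ C}
  one_mem' := ⟨1, fun x hx => by rwa [monomialMap_one]⟩
  mul_mem' := by
    rintro σ τ ⟨c, hc⟩ ⟨d, hd⟩
    exact ⟨_, fun x hx => monomialMap_comp σ τ c d x ▸ hc _ (hd x hx)⟩
  inv_mem' := by
    rintro σ ⟨c, hc⟩
    exact ⟨_, monomial_inv C hc⟩

theorem card_monomial [Finite C] :
    Nat.card {f : Equiv.Perm α × (α → Fˣ) // ∀ x ∈ C, monomialMap f.1 f.2 x ∈ C} =
      Nat.card (monPerm C) * Nat.card {c : α → Fˣ // ∀ x ∈ C, monomialMap 1 c x ∈ C} := by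
  rw [← Nat.card_prod]
  choose s hs using fun σ : monPerm C => σ.2
  refine Nat.card_congr
    { toFun := fun f => (⟨f.1.1, f.1.2, f.2⟩, ⟨fun a => f.1.2 a * (s ⟨f.1.1, f.1.2, f.2⟩ a)⁻¹, ?_⟩)
      invFun := fun g => ⟨(g.1, fun a => g.2.1 a * s g.1 a), ?_⟩
      left_inv := fun f => Subtype.ext (Prod.ext rfl (funext fun a => by simp))
      right_inv := fun g => Prod.ext rfl (Subtype.ext (funext fun a => by simp)) }
  · intro x hx
    have := f.2 _ (monomial_inv C (hs ⟨f.1.1, f.1.2, f.2⟩) x hx)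
    rw [monomialMap_comp] at this
    simpa using this
  · intro x hx
    have := g.2.2 _ (hs g.1 x hx)
    rwa [monomialMap_comp, one_mul] at this

theorem card_scalars [Nonempty α]
    (h : ∀ c : α → Fˣ, (∀ x ∈ C, monomialMap 1 c x ∈ C) → ∀ i j, c i = c j) :
    Nat.card {c : α → Fˣ // ∀ x ∈ C, monomialMap 1 c x ∈ C} = Nat.card Fˣ := by
  obtain ⟨a⟩ := ‹Nonempty α›
  exact Nat.card_congr
    { toFun := fun c => c.1 a
      invFun := fun u => ⟨fun _ => u, fun x hx => C.smul_mem (u : F) hx⟩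
      left_inv := fun c => Subtype.ext (funext fun b => h c.1 c.2 a b)
      right_inv := fun _ => rfl }

theorem filter_monomialMap [Fintype α] [DecidableEq α] [DecidableEq F] (σ : Equiv.Perm α)
    (c : α → Fˣ) (x : α → F) : (Finset.univ.filter fun a => monomialMap σ c x a ≠ 0) =
      σ • Finset.univ.filter fun a => x a ≠ 0 := by
  ext a
  rw [← Finset.inv_smul_mem_iff]
  simp [monomialMap]

end monomial

theorem FC.sound_monPerm {F : Type*} [Field F] {q w : ℕ} {O : Ops} (K : FC F q w O)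
    {α : Type*} {n u : ℕ} (E : Enc α n u) {k B I : ℕ} (h : Ops.sysOK q w n k B I = true)
    [Finite (K.code E k B)] (l : List (ℕ × ℕ)) :
    E.Sound (monPerm (K.code E k B)) fun p => band (isPerm n u p) (anyL l fun c =>
      band (Nat.beq c.1 p) (band (allLt n fun i =>
        band (Nat.blt 0 (img w c.2 i)) (Nat.blt (img w c.2 i) q)) (O.monOK w n k B I u p c.2))) := by
  intro p hp
  simp only [band_eq (isPerm n u p), Bool.and_eq_true] at hp
  obtain ⟨c, -, h1⟩ := anyL_iff.mp hp.2
  rw [band_eq, band_eq, Bool.and_eq_true, Bool.and_eq_true] at h1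
  obtain ⟨σ, hσ⟩ := E.exists_rep hp.1
  obtain ⟨h2, cu, h3⟩ := K.exists_units_of E h1.2.1
  exact ⟨σ, ⟨cu, (K.monOK_iff E h hσ h2 h3).mpr h1.2.2⟩, hσ⟩

/-! ### Backtrack search -/

/-- The image of a mask under a function on points. -/
def pushF (n : ℕ) (f : ℕ → ℕ) (m : ℕ) : ℕ := orLt n fun i => Nat.shiftLeft (bit m i) (f i)

theorem pushF_congr {n : ℕ} {f g : ℕ → ℕ} {m : ℕ} (h : ∀ i, m.testBit i = true → f i = g i) :
    pushF n f m = pushF n g m := by
  unfold pushF
  congr 1
  funext i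
  rw [bit_eq]
  split_ifs with h1
  · rw [h i h1]
  · exact (Nat.zero_shiftLeft _).trans (Nat.zero_shiftLeft _).symm

/-- Search through all maps that send the given masks to masks passing `test`; a step assigns an
image to one point. -/
def bt (n : ℕ) (test : ℕ → Bool) (fin : ℕ → (ℕ → ℕ) → Bool) (steps : List (ℕ × List ℕ)) :
    ℕ → (ℕ → ℕ) → Bool :=
  List.rec fin (fun s _ ih S f => allLt n fun y =>
    bimp (allL s.2 fun m => bimp (Nat.beq (Nat.land m (Nat.lor S (Nat.shiftLeft 1 s.1))) m)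
      (test (pushF n (fun i => ite' (Nat.beq i s.1) y (f i)) m)))
      (ih (Nat.lor S (Nat.shiftLeft 1 s.1)) fun i => ite' (Nat.beq i s.1) y (f i))) steps

theorem bt_sound {n : ℕ} {test : ℕ → Bool} {fin : ℕ → (ℕ → ℕ) → Bool} (g : ℕ → ℕ)
    {steps : List (ℕ × List ℕ)} (hg : ∀ s ∈ steps, g s.1 < n ∧ ∀ m ∈ s.2, test (pushF n g m) = true)
    {S : ℕ} {f : ℕ → ℕ} (hf : ∀ i, S.testBit i = true → f i = g i)
    (h : bt n test fin steps S f = true) :
    ∃ S' f', (∀ i, Nat.testBit S' i = true → f' i = g i) ∧ fin S' f' = true := by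
  induction steps generalizing S f with
  | nil => exact ⟨S, f, hf, h⟩
  | cons s steps ih =>
    have h1 := allLt_iff.mp h (g s.1) (hg s List.mem_cons_self).1
    have h2 : ∀ i, (Nat.lor S (Nat.shiftLeft 1 s.1)).testBit i = true →
        ite' (Nat.beq i s.1) (g s.1) (f i) = g i := by
      intro i hi
      rw [ite'_eq]
      split_ifs with h3
      · rw [Nat.eq_of_beq_eq_true h3]
      · have h4 : (S ||| 1 <<< s.1).testBit i = true := hi
        rw [Nat.testBit_or, Nat.one_shiftLeft, Nat.testBit_two_pow, Bool.or_eq_true,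
          decide_eq_true_eq] at h4
        exact hf i (h4.resolve_right fun h5 => h3 (Nat.beq_eq.mpr h5.symm))
    refine ih (fun t ht => hg t (List.mem_cons_of_mem _ ht)) h2 ((bimp_iff _ _).mp h1 ?_)
    refine allL_iff.mpr fun m hm => (bimp_iff _ _).mpr fun h3 => ?_
    rw [pushF_congr (g := g) fun i hi => h2 i ?_]
    · exact (hg s List.mem_cons_self).2 m hm
    · rw [← Nat.eq_of_beq_eq_true h3] at hi
      have h4 : (m &&& (Nat.lor S (Nat.shiftLeft 1 s.1))).testBit i = true := hi
      rw [Nat.testBit_and, Bool.and_eq_true] at h4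
      exact h4.2

/-- An automorphism of a family of masks that fixes the points of `S` is trivial. -/
theorem Enc.eq_one_of_bt {α : Type*} [Fintype α] [DecidableEq α] {n w : ℕ} (E : Enc α n w)
    {test : ℕ → Bool} {steps : List (ℕ × List ℕ)} {S : ℕ} {g : Equiv.Perm α}
    (hg : ∀ m, test m = true → test (E.toMask (g • E.ofMask m)) = true)
    (hS : ∀ a ∈ E.ofMask S, g a = a)
    (h : band (band (Nat.blt S (2 ^ n)) (allL steps fun s => band (Nat.blt s.1 n) (allL s.2 test)))
      (bt n test (fun S f => allLt n fun i => band (tb S i) (Nat.beq (f i) i)) steps S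
        fun i => i) = true) : g = 1 := by
  simp only [band_eq, Bool.and_eq_true, allL_iff, Nat.blt_eq] at h
  have h0 := E.rep_code g
  obtain ⟨S', f, h1, h2⟩ := bt_sound (img w (E.code g)) (fun s hs =>
    ⟨h0.img_lt (h.1.2 s hs).1, fun m hm => by
      have := hg m ((h.1.2 s hs).2 m hm)
      rwa [h0.smul_ofMask, E.toMask_ofMask (h0.push_lt m)] at this⟩) (fun i hi => by
      have h3 : i < n := by
        by_contra h4
        rw [Nat.testBit_lt_two_pow (lt_of_lt_of_le h.1.1
          (Nat.pow_le_pow_right (by norm_num) (not_lt.mp h4)))] at hi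
        exact Bool.noConfusion hi
      rw [h0.img_eq h3, hS _ ((E.pt_mem_ofMask S h3).mpr hi), E.ix_pt _ h3]) h.2
  refine Equiv.ext fun a => E.ix_inj ?_
  have h3 := allLt_iff.mp h2 _ (E.ix_lt a)
  simp only [Bool.and_eq_true, tb_eq, Nat.beq_eq] at h3
  rw [h0 a, ← h1 _ h3.1, h3.2]
  rfl

theorem card_le_descFactorial {α : Type*} [Fintype α] (K : Subgroup (Equiv.Perm α)) {k : ℕ}
    (a : Fin k ↪ α) (h : ∀ g ∈ K, (∀ i, g (a i) = a i) → g = 1) :
    Nat.card K ≤ (Fintype.card α).descFactorial k := by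
  classical
  have h1 : Function.Injective fun g : K => a.trans (g : Equiv.Perm α).toEmbedding := by
    intro g g' hg
    refine Subtype.ext (inv_mul_eq_one.mp (h _ (K.mul_mem (K.inv_mem g.2) g'.2) fun i => ?_))
    have : (g : Equiv.Perm α) (a i) = (g' : Equiv.Perm α) (a i) := DFunLike.congr_fun hg i
    simp [← this]
  have := Nat.card_le_card_of_injective _ h1
  rwa [Nat.card_eq_fintype_card (α := Fin k ↪ α), Fintype.card_embedding_eq, Fintype.card_fin] at this

end Cfsg.Agent.H4
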