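import Cfsg.Agent.H4.TC5

/-! Reduction of words by Coxeter relations. -/

set_option autoImplicit false

namespace Cfsg.Agent.H4.Cx

open Cfsg.Agent.H5

/-- a word for `s * w` -/
def pull (M : ℕ) : ℕ → ℕ → List ℕ → List ℕ
  | 0, s, w => s :: w
  | _ + 1, s, [] => [s]
  | n + 1, s, x :: w =>
    if x = s then w else if s < 16 ∧ x < 16 ∧ fld M 4 15 (s + 16 * x) = 2 then x :: pull M n s w
    else if s < 16 ∧ x < 16 ∧ fld M 4 15 (s + 16 * x) = 3 then x :: s :: pull M n x (pull M n s w)
    else s :: x :: w
/-- the bits of `o` tell which letters cancel -/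
def red (M o : ℕ) : List ℕ → List ℕ
  | [] => []
  | s :: w => if o.testBit w.length then pull M 99 s (red M o w) else s :: red M o w

variable {Γ : Type*} [Group Γ] {lt : ℕ → Γ} {M : ℕ}

theorem prod_pull (hq : ∀ c, lt c * lt c = 1)
    (hc : ∀ a < 16, ∀ b < 16, (lt a * lt b) ^ fld M 4 15 (a + 16 * b) = 1) (n s : ℕ) (w : List ℕ) :
    ((pull M n s w).map lt).prod = lt s * (w.map lt).prod := by
  have iv : ∀ c, (lt c)⁻¹ = lt c := fun c => inv_eq_of_mul_eq_one_left (hq c)
  induction n generalizing s w with
  | zero => simp [pull]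
  | succ n ih =>
    cases w with
    | nil => simp [pull]
    | cons x w =>
      rw [pull]
      split_ifs with h1 h2 h3
      · rw [h1, List.map_cons, List.prod_cons, ← mul_assoc, hq, one_mul]
      · have := hc s h2.1 x h2.2.1
        rw [h2.2.2, pow_two, mul_eq_one_iff_eq_inv, mul_inv_rev, iv, iv] at this
        rw [List.map_cons, List.prod_cons, ih, List.map_cons, List.prod_cons, ← mul_assoc, ← this,
          mul_assoc]
      · have := hc s h3.1 x h3.2.1
        rw [h3.2.2, show (lt s * lt x) ^ 3 = lt s * lt x * (lt s * lt x * lt s * lt x) by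
          simp only [pow_succ, pow_zero, one_mul, mul_assoc], mul_eq_one_iff_eq_inv, mul_inv_rev,
          mul_inv_rev, mul_inv_rev, iv, iv] at this
        simp only [List.map_cons, List.prod_cons, ih]
        rw [← mul_assoc (lt s) (lt x) (w.map lt).prod, this]
        simp only [mul_assoc]
      · simp
theorem prod_red (hq : ∀ c, lt c * lt c = 1)
    (hc : ∀ a < 16, ∀ b < 16, (lt a * lt b) ^ fld M 4 15 (a + 16 * b) = 1) (o : ℕ) (w : List ℕ) :
    ((red M o w).map lt).prod = (w.map lt).prod := by
  induction w with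
  | nil => rfl
  | cons s w ih =>
    rw [red]
    split_ifs
    · rw [prod_pull hq hc, ih]; simp
    · simp [ih]
theorem prod_rep (l : List ℕ) (k : ℕ) :
    ((List.replicate k l).flatten.map lt).prod = (l.map lt).prod ^ k := by
  induction k with
  | zero => simp
  | succ k ih => rw [List.replicate_succ, List.flatten_cons, List.map_append, List.prod_append, ih, pow_succ']

end Cfsg.Agent.H4.Cx
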