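import Cfsg.Agent.H4.Fis2
import Cfsg.Agent.H4.K4

set_option autoImplicit false
set_option maxRecDepth 100000

namespace Cfsg.Agent.H4.F22

open Subgroup Cfsg.Agent.H5 Cfsg.Agent.H5.Mdl 

abbrev GA : Type := GL (Fin 78) (ZMod 2)
noncomputable abbrev φA : GA →* Matrix (Fin 78) (Fin 78) (ZMod 2) := Units.coeHom _
noncomputable abbrev mA := md2 (ZMod 2) 78 φA Units.val_injective
theorem hb : (∀ a b, mU.mul a b < 2 ^ 72) ∧ mU.one < 2 ^ 72 :=
  ⟨fun a b => mulF_lt (d := 6) (by decide) a b, by decide +kernel⟩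
noncomputable abbrev mP := pair mA mU 72 hb
theorem hA : ∀ g a, mA.φ g = mA.ev a → φA g = ev2 (ZMod 2) 78 ((fun a => a) a) := fun _ _ h => h
theorem hU : ∀ g a, mU.φ g = mU.ev a → suφ g = ev4 om (Equiv.refl _) ((fun a => a) a) := fun _ _ h => h
abbrev kA : ℕ → ℕ := fun a => Nat.land a (msk (Nat.mul 78 78))
theorem keyA : Key mA kA := key2 _ _ _ _
noncomputable abbrev kU : ℕ → ℕ := fun a => mulF 6 a (oneF 6)
theorem keyU : Key mU kU := key4 _ (by decide) hom _ _

end Cfsg.Agent.H4.F22
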