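/-
The hexacode.
-/
import Cfsg.Agent.H4.Code
import Cfsg.Agent.H4.Iso

set_option autoImplicit false
set_option maxRecDepth 100000

open scoped Pointwise

namespace Cfsg.Agent.H4

/-- The encoding of the six positions. -/
def hE : Enc (Fin 6) 6 3 := finEnc 6 3 (by norm_num)

/-- A systematic generator matrix. -/
def hB : ℕ := 0x550e44b41
/-- The information positions. -/
def hI : ℕ := 0x020100

theorem hOK : Ops.sysOK 4 2 6 3 hB hI = true := by decide +kernel

theorem hexacode_eq {F : Type*} [Field F] (K : FC F 4 2 f4Ops) :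
    hexacode F (K.val 2) = K.code hE 3 hB := by
  have h3 : K.val 2 ^ 2 = K.val 3 := by
    rw [sq, ← K.val_mul 2 2 (by norm_num) (by norm_num)]; rfl
  have h1 : hexacode F (K.val 2) = K.code hE 3 0xebbbebbbe := by
    rw [hexacode, FC.code, h3]
    congr 1
    ext x
    simp only [Set.mem_insert_iff, Set.mem_singleton_iff, Set.mem_range, Fin.exists_fin_succ,
      IsEmpty.exists_iff, or_false]
    refine or_congr ?_ (or_congr ?_ ?_) <;>
      exact eq_comm.trans (Eq.congr_left (funext fun i => by fin_cases i <;> rfl))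
  rw [h1]
  apply le_antisymm
  · rw [FC.code, Submodule.span_le]
    rintro _ ⟨j, rfl⟩
    have h2 : allLt 3 (fun j => band (Ops.okC 4 2 6 (img 12 0xebbbebbbe j))
      (f4Ops.inCode 2 6 3 hB hI (img 12 0xebbbebbbe j))) = true := by decide +kernel
    have h6 : K.row hE 0xebbbebbbe j = K.vec hE (img 12 0xebbbebbbe j) := by
      funext i
      exact congrArg K.val (by revert i j; decide +kernel)
    have h4 := allLt_iff.mp h2 j j.2
    rw [band_eq, Bool.and_eq_true, FC.okC_iff] at h4
    have h5 := (K.vec_mem_iff hE hOK h4.1).mpr h4.2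
    show K.row hE _ j ∈ _
    rwa [h6]
  · rw [FC.code, Submodule.span_le]
    rintro _ ⟨j, rfl⟩
    have h2 : allLt 3 (fun j => band (Ops.okC 4 2 3 (img 6 0x147ce j))
      (Nat.beq (Ops.rowc 2 6 hB j) (f4Ops.lc 2 6 3 0xebbbebbbe (img 6 0x147ce j)))) = true := by
      decide +kernel
    have h4 := allLt_iff.mp h2 j j.2
    rw [band_eq, Bool.and_eq_true, FC.okC_iff, Nat.beq_eq] at h4
    show K.row hE hB j ∈ _
    rw [← (K.vec_rowc hE hOK j.2).2, h4.2]
    exact K.vec_lc_mem' hE (by decide +kernel) h4.1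

theorem exists_hexacode_eq (F : Type*) [Field F] [Fintype F] (hF : Fintype.card F = 4) (ω : F)
    (hω : ω ^ 2 + ω + 1 = 0) : ∃ K : FC F 4 2 f4Ops, hexacode F ω = K.code hE 3 hB := by
  have := charP_of_card Nat.prime_two 2 hF
  exact ⟨f4FC F ω hω, by rw [← hexacode_eq, f4FC_two]⟩

end Cfsg.Agent.H4
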