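import Cfsg.Agent.H4.Jan

set_option autoImplicit false
set_option maxRecDepth 100000

namespace Cfsg.Agent.H4.J4

open Subgroup Cfsg.Agent.H5 Cfsg.Agent.H5.Mdl 

abbrev GA : Type := GL (Fin 112) (ZMod 2)
noncomputable abbrev φA : GA →* Matrix (Fin 112) (Fin 112) (ZMod 2) := Units.coeHom _
noncomputable abbrev mA := md2 (ZMod 2) 112 φA Units.val_injective
theorem hA : ∀ g a, mA.φ g = mA.ev a → φA g = ev2 (ZMod 2) 112 ((fun a => a) a) := fun _ _ h => h
abbrev kA : ℕ → ℕ := fun a => Nat.land a (msk (Nat.mul 112 112))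
theorem keyA : Key mA kA := key2 _ _ _ _

end Cfsg.Agent.H4.J4
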