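/-
Orders of point stabilisers in the dodecad group.
-/
import Cfsg.Agent.H4.Trio
import Cfsg.Agent.H4.Hom

set_option autoImplicit false
set_option maxRecDepth 100000

open scoped Pointwise
open MulAction

namespace Cfsg.Agent.H4

theorem apply_mem_of_cfg {l ms : List ℕ} {g : Equiv.Perm GolayPt} (hg : g ∈ cfg l ms)
    {s b m : ℕ} (hs : s ∈ ms)
    (h : band (Nat.blt b 24) (band (allL l fun j => band (Nat.blt j 24) (bnot (Nat.beq j b)))
      (allLt 24 fun i => bor (bnot (Nat.beq (bit s i) (bit s b))) (bor (tb m i) (memL l i)))) = true) :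
    g (gE.pt b) ∈ gE.ofMask m := by
  simp only [band_eq, Bool.and_eq_true, Nat.blt_eq, allL_iff, allLt_iff, bnot_eq, bor_eq,
    Bool.or_eq_true, Bool.not_eq_true', memL_iff] at h
  obtain ⟨hb, h1, h2⟩ := h
  have h3 : g (gE.pt b) ∈ gE.ofMask s ↔ gE.pt b ∈ gE.ofMask s := by
    conv_lhs => rw [← hg.2.2 s hs]
    exact apply_mem_smul_iff _ _ _
  rcases h2 _ (gE.ix_lt (g (gE.pt b))) with h4 | h4 | h4
  · exfalso
    rw [gE.pt_mem_ofMask s hb, Enc.mem_ofMask] at h3
    rw [bit_eq, bit_eq] at h4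
    simp [h3] at h4
  · exact (gE.mem_ofMask_tb _ _).mpr h4
  · exfalso
    have h5 := hg.2.1 _ h4
    rw [gE.pt_ix] at h5
    have h6 := g.injective h5
    have h7 := (h1 _ h4).2
    rw [h6, gE.ix_pt _ hb, Nat.beq_refl] at h7
    exact Bool.noConfusion h7

theorem card_d_in : Nat.card (cfg [0] [d0]) = 7920 := by
  have h := card_cfg_step [] [d0] [0x51ef3a26a4b38507ad068c8a068583, 0x2ba35512c83dc02a2c667b2614b612] 6 0 0x5335f (by decide +kernel)
    fun g hg => apply_mem_of_cfg hg (s := d0) (by simp) (by decide +kernel)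
  rw [card_cfg_d0, show pc 24 0x5335f = 12 by decide +kernel] at h
  omega

theorem card_d_in2 : Nat.card (cfg [1, 0] [d0]) = 720 := by
  have h := card_cfg_step [0] [d0] [0x75167b36a88a8c97ce032b2e291020, 0x9c6cba86ed3bc5272a0ca20a448cc0] 6 1 0x5335e (by decide +kernel)
    fun g hg => apply_mem_of_cfg hg (s := d0) (by simp) (by decide +kernel)
  rw [card_d_in, show pc 24 0x5335e = 11 by decide +kernel] at h
  omega

theorem card_d_in3 : Nat.card (cfg [2, 1, 0] [d0]) = 72 := by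
  have h := card_cfg_step [1, 0] [d0] [0x52cb4732247cd12b5c4d39ab01a420, 0xbd8aeaa222a3e0651d835a66493420] 6 2 0x5335c (by decide +kernel)
    fun g hg => apply_mem_of_cfg hg (s := d0) (by simp) (by decide +kernel)
  rw [card_d_in2, show pc 24 0x5335c = 10 by decide +kernel] at h
  omega

theorem card_d_in_out : Nat.card (cfg [23, 0] [d0]) = 660 := by
  have h := card_cfg_step [0] [d0] [0x2a9ee890f05d932bd0ccaa2620b460, 0x75e6a2a16d7c524a5461b40f261840] 6 23 0xfacca0 (by decide +kernel)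
    fun g hg => apply_mem_of_cfg hg (s := d0) (by simp) (by decide +kernel)
  rw [card_d_in, show pc 24 0xfacca0 = 12 by decide +kernel] at h
  omega

theorem card_d_in_out_out : Nat.card (cfg [5, 23, 0] [d0]) = 60 := by
  have h := card_cfg_step [23, 0] [d0] [0xb95cb7c14c8cc813d4c9a22cd14860, 0xbd636749e2a14709a9865b4e909100] 6 5 0x7acca0 (by decide +kernel)
    fun g hg => apply_mem_of_cfg hg (s := d0) (by simp) (by decide +kernel)
  rw [card_d_in_out, show pc 24 0x7acca0 = 11 by decide +kernel] at h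
  omega

theorem conj_inf {G : Type*} [Group G] {g : G} {A B A' B' : Subgroup G}
    (h : ∀ x, x ∈ A ↔ g * x * g⁻¹ ∈ A') (h' : ∀ x, x ∈ B ↔ g * x * g⁻¹ ∈ B') (x : G) :
    x ∈ A ⊓ B ↔ g * x * g⁻¹ ∈ A' ⊓ B' := by
  rw [Subgroup.mem_inf, Subgroup.mem_inf, h, h']

theorem mem_stab_pt (g : M24) (p : GolayPt) :
    g ∈ stabilizer M24 p ↔ (g : Equiv.Perm GolayPt) p = p := Iff.rfl

theorem mem_stab_set (g : M24) (s : Finset GolayPt) :
    g ∈ stabilizer M24 s ↔ (g : Equiv.Perm GolayPt) • s = s := Iff.rfl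

/-- The standard copy of the smallest Mathieu group. -/
abbrev M11s : Subgroup M24 := stabilizer M24 (gE.ofMask d0) ⊓ stabilizer M24 (gE.pt 0)

theorem mem_M11s (g : M24) : g ∈ M11s ↔ (g : Equiv.Perm GolayPt) ∈ cfg [0] [d0] := by
  simp only [Subgroup.mem_inf, mem_cfg, List.forall_mem_cons, mem_stab_pt, mem_stab_set]
  simp [and_comm]

theorem card_M11s : Nat.card M11s = 7920 := (card_eq_card_cfg mem_M11s).trans card_d_in

theorem sound_M11s : gE.Sound M11s (memCfg [0] [d0]) :=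
  sound_of_le_cfg fun g => (mem_M11s g).mpr

theorem mem_stab_d0 (g : M24) :
    g ∈ stabilizer M24 (gE.ofMask d0) ↔ (g : Equiv.Perm GolayPt) ∈ cfg [] [d0] := by
  simp only [mem_cfg, List.forall_mem_cons, mem_stab_set]
  simp

theorem card_stab_d0 : Nat.card (stabilizer M24 (gE.ofMask d0)) = 95040 :=
  (card_eq_card_cfg mem_stab_d0).trans card_cfg_d0

theorem sound_stab_d0 : gE.Sound (stabilizer M24 (gE.ofMask d0)) (memCfg [] [d0]) :=
  sound_of_le_cfg fun g => (mem_stab_d0 g).mpr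

end Cfsg.Agent.H4
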