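/-
The octad group: no subgroup of index two, the pointwise stabiliser of an octad.
-/
import Cfsg.Agent.H4.M12

set_option autoImplicit false
set_option maxRecDepth 100000

open scoped Pointwise
open MulAction

namespace Cfsg.Agent.H4

theorem conj_mem_M24_iff {g : Equiv.Perm GolayPt} (hg : g ∈ M24) (x : Equiv.Perm GolayPt) :
    x ∈ M24 ↔ g * x * g⁻¹ ∈ M24 := by
  rw [M24.mul_mem_cancel_right (M24.inv_mem hg), M24.mul_mem_cancel_left hg]

theorem cfg_o0 : cfg [] [o0] = M24 ⊓ stabilizer (Equiv.Perm GolayPt) (gE.ofMask o0) := by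
  rw [cfg_cons', cfg_nil]

theorem hom_trivial_o0 (f : cfg [] [o0] →* ℤˣ) (x : cfg [] [o0]) : f x = 1 := by
  have h1 : gE.cg.In (f.ker.map (Subgroup.subtype _))
      [comp 24 5 0x725f03b40660a92b208b9aa3528c37 0x725f03b40660a92b208b9aa3528c37, comp 24 5 0x2170abdd255cd4b352464c2789443 0x2170abdd255cd4b352464c2789443] := by
    have key : ∀ a, memCfg [] [o0] a = true →
        ∃ g ∈ f.ker.map (Subgroup.subtype _), gE.cg.Rep g (comp 24 5 a a) := fun a ha => by
      obtain ⟨g, hg, h⟩ := sound_cfg _ _ a ha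
      exact ⟨g * g, ⟨⟨g, hg⟩ * ⟨g, hg⟩, by
        rw [SetLike.mem_coe, MonoidHom.mem_ker, map_mul, Int.units_mul_self], rfl⟩,
        Enc.Rep.mul h h⟩
    intro c hc
    simp only [List.mem_cons, List.not_mem_nil, or_false] at hc
    rcases hc with rfl | rfl <;> exact key _ (by decide +kernel)
  have h2 : 322560 ≤ Nat.card (f.ker.map (Subgroup.subtype _)) :=
    le_trans (by decide +kernel) (Enc.chainLB_le 4
      [(4, [0x111869d2ea90e0d4aeb63a00f8942e, 0x192d25aaef6827041927a544c704b1]),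
   (6, [0x2b5075cc52ab98f4aa86858248dc03, 0x2c2964a1d36c4ef51aac92c0408877]),
   (7, [0xba613a3dd5945075aacd618a408860, 0x1a98d3a049a3ad2ac1f359804896e1]),
   (8, [0x5a72ad22d40e0952d8f398a470837, 0x159aa830134c6b47c90b39ae428dc1, 0x2d9925d1c94094d8566f3980488ee1]),
   (0, [0x2d9345486c789706cea839ae48b801, 0xd974649ca7c533ac1a83980410ee5, 0x75a74ac82d7de0b625483984401623])] _ _
      (sound_memL (h1.slp gE.cg [(0, 2), (2, 2), (0, 0), (0, 3), (4, 3), (6, 7), (0, 0), (0, 3), (0, 1), (1, 1), (6, 2), (2, 0), (0, 2), (3, 1), (1, 0), (0, 2), (3, 4), (4, 1), (8, 1), (6, 10), (10, 1), (8, 1), (9, 1), (10, 4), (14, 1), (0, 0), (0, 4), (11, 1), (1, 13), (10, 11), (14, 1)])))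
  rw [Subgroup.card_map_of_injective Subtype.val_injective, ← card_cfg_o0] at h2
  exact (Subgroup.eq_top_of_le_card _ h2).ge (Subgroup.mem_top x)

theorem octad_conj {o : Finset GolayPt} (ho : o ∈ octads) :
    Nonempty (↥(M24 ⊓ stabilizer (Equiv.Perm GolayPt) o) ≃* cfg [] [o0]) := by
  obtain ⟨g, hg, h⟩ := trans_octad ho
  rw [cfg_o0]
  exact ⟨equivOfConj g (conj_inf (conj_mem_M24_iff hg) (mem_stabilizer_conj h))⟩

theorem card_octad_stab {o : Finset GolayPt} (ho : o ∈ octads) :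
    Nat.card ↥(M24 ⊓ stabilizer (Equiv.Perm GolayPt) o) = 322560 := by
  obtain ⟨e⟩ := octad_conj ho
  rw [Nat.card_congr e.toEquiv, card_cfg_o0]

theorem hom_trivial_octad {o : Finset GolayPt} (ho : o ∈ octads)
    (f : ↥(M24 ⊓ stabilizer (Equiv.Perm GolayPt) o) →* ℤˣ) (x) : f x = 1 := by
  obtain ⟨e⟩ := octad_conj ho
  simpa using hom_trivial_o0 (f.comp e.symm.toMonoidHom) (e x)

theorem eq_one_of_fix_octad {o : Finset GolayPt} (ho : o ∈ octads) {p : GolayPt} (hp : p ∉ o)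
    {g : Equiv.Perm GolayPt} (hg : g ∈ M24) (h1 : ∀ x ∈ o, g x = x) (h2 : g p = p) : g = 1 := by
  obtain ⟨k, hk, h3, h4⟩ := flag_o_out ho hp
  have h5 : ∀ i, i < 24 → tb o0 i = true → (k * g * k⁻¹) (gE.pt i) = gE.pt i := fun i hi h => by
    have h6 := (pt_mem_ofMask_tb o0 hi).mpr h
    rw [← h3, ← Finset.inv_smul_mem_iff] at h6
    exact (congrArg k (h1 _ h6)).trans (k.apply_symm_apply _)
  have h6 : k * g * k⁻¹ ∈ cfg [5, 4, 3, 2, 1, 0, 23] [] := by
    refine ⟨(conj_mem_M24_iff hk g).mp hg, ?_, by simp⟩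
    simp only [List.forall_mem_cons]
    exact ⟨h5 5 (by norm_num) rfl, by simp [← h4, h2], h5 3 (by norm_num) rfl,
      h5 2 (by norm_num) rfl, h5 1 (by norm_num) rfl, h5 0 (by norm_num) rfl,
      h5 23 (by norm_num) rfl, by simp⟩
  rw [cfg7_eq_bot, Subgroup.mem_bot] at h6
  simpa [mul_inv_eq_one] using h6

theorem fix_trans : ∀ a ∈ gE.ofMask 0x7dbfd0, ∃ g ∈ cfg [17, 14, 5, 3, 2, 1, 0, 23] [], g a = gE.pt 4 :=
  cfg_trans _ _ [0xbc0ea332364b892451ebaccad18820, 0xbc92655a2c3b9706cea47d0a818820, 0xba1474922b3398d85676a3cb218820, 0xbd17661a2a23933ac1a7448af18820] 6 _ _ (by decide +kernel)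

theorem exists_fix_octad {o : Finset GolayPt} (ho : o ∈ octads) {p q : GolayPt} (hp : p ∉ o)
    (hq : q ∉ o) : ∃ g ∈ M24, (∀ x ∈ o, g x = x) ∧ g q = p := by
  obtain ⟨k, hk, h3, h4⟩ := flag_o_out ho hp
  obtain ⟨g, hg, h5⟩ := fix_trans (k q) (mem_ofMask_of_not (s := o0) (l := [])
    (by rwa [← h3, apply_mem_smul_iff]) (by simp) (by decide +kernel))
  refine ⟨_, conj_mem_M24 hk hg.1, fun x hx => conj_apply_eq ?_, conj_apply_eq (h5.trans h4.symm)⟩
  exact fix_ofMask_of_list hg.2.1 (F := o0) (by decide +kernel) _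
    (by rwa [← h3, apply_mem_smul_iff])

/-- The action of the stabiliser of a set on the set. -/
def restrictHom (K : Subgroup (Equiv.Perm GolayPt)) (o : Finset GolayPt)
    (h : ∀ g ∈ K, ∀ x, g x ∈ o ↔ x ∈ o) : K →* Equiv.Perm o where
  toFun g := (g : Equiv.Perm GolayPt).subtypePerm (h g g.2)
  map_one' := rfl
  map_mul' _ _ := rfl

theorem stab_apply_mem_iff (o : Finset GolayPt) :
    ∀ g ∈ M24 ⊓ stabilizer (Equiv.Perm GolayPt) o, ∀ x, g x ∈ o ↔ x ∈ o := fun g hg x => by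
  conv_lhs => rw [← mem_stabilizer_iff.mp hg.2]
  exact apply_mem_smul_iff _ _ _

theorem card_alt_octad {o : Finset GolayPt} (ho : o ∈ octads) :
    Nat.card (alternatingGroup o) = 20160 := by
  have h : Fintype.card o = 8 := by rw [Fintype.card_coe, ho.2]
  have : Nontrivial o := Fintype.one_lt_card_iff_nontrivial.mp (by omega)
  rw [nat_card_alternatingGroup, Nat.card_eq_fintype_card, h]; rfl

theorem range_le_alt {o : Finset GolayPt} (ho : o ∈ octads) :
    (restrictHom _ o (stab_apply_mem_iff o)).range ≤ alternatingGroup o := by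
  rintro _ ⟨x, rfl⟩
  exact hom_trivial_octad ho (Equiv.Perm.sign.comp (restrictHom _ o (stab_apply_mem_iff o))) x

theorem card_octad_point {o : Finset GolayPt} (ho : o ∈ octads) {p : GolayPt} (hp : p ∉ o) :
    Nat.card ↥(M24 ⊓ stabilizer (Equiv.Perm GolayPt) o ⊓ stabilizer (Equiv.Perm GolayPt) p) =
      20160 := by
  have h := card_eq_of_orbit_eq (M24 ⊓ stabilizer (Equiv.Perm GolayPt) o) p (oᶜ : Finset GolayPt)
    (fun g hg => by simpa [stab_apply_mem_iff o g hg] using hp) (fun q hq => by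
      obtain ⟨g, hg, h1, h2⟩ := exists_fix_octad ho (Finset.mem_compl.mp hq) hp
      refine ⟨g, ⟨hg, Finset.eq_of_subset_of_card_le (fun x hx => ?_)
        (Finset.card_smul_finset _ _).ge⟩, h2⟩
      obtain ⟨y, hy, rfl⟩ := Finset.mem_smul_finset.mp hx
      rwa [Equiv.Perm.smul_def, h1 y hy])
  rw [card_octad_stab ho, Set.ncard_coe_finset, Finset.card_compl, card_golayPt, ho.2] at h
  omega

/-- The joint stabiliser of an octad and a point off it maps onto the alternating group. -/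
theorem exists_equiv_alt {o : Finset GolayPt} (ho : o ∈ octads) {p : GolayPt} (hp : p ∉ o) :
    ∃ e : ↥(M24 ⊓ stabilizer (Equiv.Perm GolayPt) o ⊓ stabilizer (Equiv.Perm GolayPt) p) ≃*
      alternatingGroup o, ∀ g, (e g : Equiv.Perm o) =
        restrictHom _ o (stab_apply_mem_iff o) ⟨g, g.2.1⟩ := by
  let f : ↥(M24 ⊓ stabilizer (Equiv.Perm GolayPt) o ⊓ stabilizer (Equiv.Perm GolayPt) p) →*
      alternatingGroup o := ((restrictHom _ o (stab_apply_mem_iff o)).comp
    (Subgroup.inclusion inf_le_left)).codRestrict _ fun g => range_le_alt ho ⟨_, rfl⟩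
  have hf : Function.Injective f := by
    rw [injective_iff_map_eq_one]
    intro g hg
    refine Subtype.ext (eq_one_of_fix_octad ho hp g.2.1.1 (fun x hx => ?_) g.2.2)
    exact congrArg Subtype.val (Equiv.congr_fun (congrArg Subtype.val hg) ⟨x, hx⟩)
  exact ⟨MulEquiv.ofBijective f (hf.bijective_of_nat_card_le
    (by rw [card_alt_octad ho, card_octad_point ho hp])), fun g => rfl⟩

end Cfsg.Agent.H4
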