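/-
Quartets of a dodecad.
-/
import Cfsg.Agent.H4.M12

set_option autoImplicit false
set_option maxRecDepth 100000

open scoped Pointwise
open MulAction

namespace Cfsg.Agent.H4

/-- The family of sets with masks in `l`. -/
def fam (l : List ℕ) : Finset (Finset GolayPt) := (l.map gE.ofMask).toFinset

theorem mem_fam {l : List ℕ} {s : Finset GolayPt} : s ∈ fam l ↔ ∃ m ∈ l, gE.ofMask m = s := by
  simp [fam]

theorem ofMask_mem_fam {l : List ℕ} {m : ℕ} (h : m ∈ l) : gE.ofMask m ∈ fam l :=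
  mem_fam.mpr ⟨m, h, rfl⟩

theorem card_fam_le (l : List ℕ) : (fam l).card ≤ l.length :=
  (List.toFinset_card_le _).trans (List.length_map _).le

theorem ofMask_mem_fam_iff {l : List ℕ} (hl : ∀ m ∈ l, m < 2 ^ 24) {m : ℕ} (hm : m < 2 ^ 24) :
    gE.ofMask m ∈ fam l ↔ m ∈ l := by
  refine ⟨fun h => ?_, ofMask_mem_fam⟩
  obtain ⟨a, ha, h1⟩ := mem_fam.mp h
  rwa [← (gE.ofMask_inj (hl a ha) hm).mp h1]

theorem card_fam {l : List ℕ} (hl : ∀ m ∈ l, m < 2 ^ 24) (h : l.Nodup) :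
    (fam l).card = l.length := by
  rw [fam, List.toFinset_card_of_nodup, List.length_map]
  exact h.map_on fun a ha b hb hab => (gE.ofMask_inj (hl a ha) (hl b hb)).mp hab

/-- The images of the masks in a list. -/
def pushL (p : ℕ) (l : List ℕ) : List ℕ := List.rec [] (fun a _ ih => push 24 5 p a :: ih) l

theorem pushL_eq (p : ℕ) (l : List ℕ) : pushL p l = l.map (push 24 5 p) := by
  induction l with
  | nil => rfl
  | cons a l ih => exact congrArg _ ih

theorem smul_fam {g : M24} {p : ℕ} (hg : gE.RepA g p) (l : List ℕ) :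
    g • fam l = fam (pushL p l) := by
  ext s
  rw [Finset.mem_smul_finset, mem_fam, pushL_eq]
  constructor
  · rintro ⟨t, ht, rfl⟩
    obtain ⟨m, hm, rfl⟩ := mem_fam.mp ht
    exact ⟨_, List.mem_map_of_mem hm, (Enc.Rep.smul_ofMask hg m).symm⟩
  · rintro ⟨_, hm', rfl⟩
    obtain ⟨m, hm, rfl⟩ := List.mem_map.mp hm'
    exact ⟨_, ofMask_mem_fam hm, Enc.Rep.smul_ofMask hg m⟩

theorem fam_subset {l l' : List ℕ} (h : allL l (memL l') = true) : fam l ⊆ fam l' := fun s hs => by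
  obtain ⟨m, hm, rfl⟩ := mem_fam.mp hs
  exact ofMask_mem_fam (memL_iff.mp (allL_iff.mp h m hm))

theorem smul_fam_eq {g : M24} {p : ℕ} (hg : gE.RepA g p) {l : List ℕ}
    (h : allL (pushL p l) (memL l) = true) : g • fam l = fam l :=
  Finset.eq_of_subset_of_card_le (smul_fam hg l ▸ fam_subset h) (Finset.card_smul_finset _ _).ge

/-- The masks of the 132 hexads on the standard dodecad. -/
def hexL : List ℕ := [0x157, 0x24f, 0x31d, 0x35a, 0x101f, 0x114e, 0x1159, 0x1253, 0x125c, 0x130b, 0x1316, 0x1345, 0x205d, 0x211e, 0x214b, 0x221b, 0x2256, 0x2307, 0x234c, 0x2351, 0x3047, 0x305a, 0x310d, 0x3113, 0x3154, 0x320e, 0x3215, 0x3249, 0x3318, 0x3342, 0x1005b, 0x1010f, 0x1015c, 0x1021e, 0x10255, 0x10313, 0x10346, 0x10349, 0x1104d, 0x11056, 0x11115, 0x1111a, 0x11143, 0x11207, 0x11219, 0x1124a, 0x1130c, 0x11350, 0x12017, 0x1204e, 0x12119, 0x12145, 0x12152, 0x1220d, 0x12243, 0x12258, 0x1230a, 0x12314, 0x1300b, 0x1301c, 0x13051, 0x13106,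 0x13148, 0x13212, 0x13244, 0x13301, 0x4005e, 0x4011b, 0x4014d, 0x40217, 0x40259, 0x4030e, 0x40343, 0x40354, 0x4104b, 0x41055, 0x41107, 0x4111c, 0x41152, 0x4120d, 0x4121a, 0x41246, 0x41311, 0x41348, 0x4200f, 0x42053, 0x42115, 0x42146, 0x42158, 0x4221c, 0x42245, 0x4224a, 0x42309, 0x42312, 0x43016, 0x43019, 0x4304c, 0x4310a, 0x43141, 0x43203, 0x43250, 0x43304, 0x5001d, 0x50047, 0x50116, 0x5014a, 0x50151, 0x5020b, 0x5024c, 0x50252, 0x50305, 0x50318, 0x5100e, 0x51013, 0x51058, 0x51109, 0x51144, 0x51214, 0x51241, 0x51302, 0x5201a, 0x52049, 0x52054, 0x52103, 0x5210c, 0x52206, 0x52211, 0x52340, 0x53005, 0x53042, 0x53110, 0x53208]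

theorem mem_hexadsOn_d0 {m : ℕ} (hm : m < 2 ^ 24) :
    gE.ofMask m ∈ hexadsOn (gE.ofMask d0) ↔ m ∈ hexL := by
  constructor
  · rintro ⟨h1, o, ho, h2⟩
    obtain ⟨a, ha, rfl⟩ := mem_octads_iff_octL.mp ho
    rw [← gE.ofMask_land, gE.ofMask_inj (Nat.and_lt_two_pow _ (by decide)) hm] at h2
    rw [card_ofMask24 hm] at h1
    have h3 : allL octL (fun a => bimp (Nat.beq (pc24 (Nat.land a d0)) 6)
      (memL hexL (Nat.land a d0))) = true := by decide +kernel
    subst h2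
    exact memL_iff.mp ((bimp_iff _ _).mp (allL_iff.mp h3 a ha) (Nat.beq_eq.mpr h1))
  · intro h
    have h3 : allL hexL (fun m => band (Nat.beq (pc24 m) 6)
      (anyL octL fun a => Nat.beq (Nat.land a d0) m)) = true := by decide +kernel
    have h4 := allL_iff.mp h3 m h
    simp only [band_eq, Bool.and_eq_true, Nat.beq_eq, anyL_iff] at h4
    obtain ⟨h5, a, ha, rfl⟩ := h4
    exact ⟨by rw [card_ofMask24 hm, h5], _, mem_octads_iff_octL.mpr ⟨a, ha, rfl⟩,
      (gE.ofMask_land _ _).symm⟩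

/-- The list of masks describes a quartet of the standard dodecad. -/
def qOK (l : List ℕ) : Bool :=
  band (band (Nat.beq l.length 4) (nodupL l)) (allL l fun a =>
    band (band (Nat.beq (Nat.land a d0) a) (Nat.beq (pc24 a) 3))
      (allL l fun b => bor (Nat.beq a b) (memL hexL (Nat.lor a b))))

theorem lt_of_qOK {l : List ℕ} (h : qOK l = true) : ∀ m ∈ l, m < 2 ^ 24 := fun m hm => by
  simp only [qOK, band_eq, Bool.and_eq_true, allL_iff, Nat.beq_eq] at h
  rw [← (h.2 m hm).1.1]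
  exact Nat.and_lt_two_pow _ (by decide)

theorem fam_mem_quartets {l : List ℕ} (h : qOK l = true) : fam l ∈ quartets (gE.ofMask d0) := by
  have hl := lt_of_qOK h
  simp only [qOK, band_eq, bor_eq, Bool.and_eq_true, Bool.or_eq_true, allL_iff, Nat.beq_eq,
    memL_iff] at h
  refine ⟨by rw [card_fam hl (nodup_of_nodupL h.1.2), h.1.1], fun t ht => ?_, fun t ht u hu hne => ?_⟩
  · obtain ⟨a, ha, rfl⟩ := mem_fam.mp ht
    exact ⟨by rw [card_ofMask24 (hl a ha), (h.2 a ha).1.2], gE.ofMask_subset_of_land (h.2 a ha).1.1⟩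
  · obtain ⟨a, ha, rfl⟩ := mem_fam.mp ht
    obtain ⟨b, hb, rfl⟩ := mem_fam.mp hu
    rcases (h.2 a ha).2 b hb with rfl | h1
    · exact absurd rfl hne
    · rw [← gE.ofMask_lor, mem_hexadsOn_d0 (Nat.or_lt_two_pow (hl a ha) (hl b hb))]
      exact h1

/-- The triples that complete the standard triple to a hexad. -/
def parL : List ℕ := [0x1018, 0x248, 0x10108, 0x42008, 0x150, 0x40210, 0x12010, 0x3040, 0x50040, 0x2300, 0x41100, 0x11200]

theorem exists_mem_parL {s : Finset GolayPt} (hs : s.card = 3)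
    (h : gE.ofMask 7 ∪ s ∈ hexadsOn (gE.ofMask d0)) : ∃ b ∈ parL, gE.ofMask b = s := by
  have h1 := gE.forall_sub 3 (fun m => bimp (memL hexL (Nat.lor 7 m)) (memL parL m))
    (by decide +kernel) s hs
  refine ⟨_, memL_iff.mp ((bimp_iff _ _).mp h1 (memL_iff.mpr ?_)), gE.ofMask_toMask s⟩
  rw [← gE.ofMask_toMask s, ← gE.ofMask_lor,
    mem_hexadsOn_d0 (Nat.or_lt_two_pow (by norm_num) (gE.toMask_lt s))] at h
  exact h

/-- The standard quartet. -/
def q0 : List ℕ := [0x7, 0x1018, 0x50040, 0x2300]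

/-- The four quartets through the standard triple. -/
def q4 : List (List ℕ) := [q0, [0x7, 0x248, 0x12010, 0x41100], [0x7, 0x10108, 0x40210, 0x3040], [0x7, 0x42008, 0x150, 0x11200]]

theorem quartet_cases {Q : Finset (Finset GolayPt)} (hQ : Q ∈ quartets (gE.ofMask d0))
    (h : gE.ofMask 7 ∈ Q) : ∃ q ∈ q4, Q = fam q := by
  have h1 : (Q.erase (gE.ofMask 7)).card = 3 := by rw [Finset.card_erase_of_mem h, hQ.1]
  obtain ⟨u, v, w, huv, huw, hvw, h2⟩ := Finset.card_eq_three.mp h1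
  have key : ∀ x ∈ Q.erase (gE.ofMask 7), ∃ b ∈ parL, gE.ofMask b = x := fun x hx =>
    exists_mem_parL (hQ.2.1 x (Finset.mem_of_mem_erase hx)).1
      (hQ.2.2 _ h x (Finset.mem_of_mem_erase hx) (Finset.ne_of_mem_erase hx).symm)
  have hu : u ∈ Q.erase (gE.ofMask 7) := by simp [h2]
  have hv : v ∈ Q.erase (gE.ofMask 7) := by simp [h2]
  have hw : w ∈ Q.erase (gE.ofMask 7) := by simp [h2]
  obtain ⟨b, hb, rfl⟩ := key u hu
  obtain ⟨c, hc, rfl⟩ := key v hv
  obtain ⟨e, he, rfl⟩ := key w hw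
  have h3 : allL parL (fun b => Nat.blt b 16777216) = true := by decide +kernel
  have h4 : ∀ b ∈ parL, ∀ c ∈ parL, gE.ofMask b ∈ Q.erase (gE.ofMask 7) →
      gE.ofMask c ∈ Q.erase (gE.ofMask 7) → gE.ofMask b ≠ gE.ofMask c →
      memL hexL (Nat.lor b c) = true := fun b hb c hc h5 h6 h7 => by
    have := hQ.2.2 _ (Finset.mem_of_mem_erase h5) _ (Finset.mem_of_mem_erase h6) h7
    rw [← gE.ofMask_lor, mem_hexadsOn_d0 (Nat.or_lt_two_pow
      (Nat.blt_eq.mp (allL_iff.mp h3 b hb)) (Nat.blt_eq.mp (allL_iff.mp h3 c hc)))] at this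
    exact memL_iff.mpr this
  have h5 : allL parL (fun b => allL parL fun c => bimp (memL hexL (Nat.lor b c))
      (allL parL fun e => bimp (memL hexL (Nat.lor b e)) (bimp (memL hexL (Nat.lor c e))
        (anyL q4 fun q => band (Nat.beq q.length 4) (allL [7, b, c, e] (memL q)))))) = true := by
    decide +kernel
  obtain ⟨q, hq, h6⟩ := anyL_iff.mp ((bimp_iff _ _).mp ((bimp_iff _ _).mp (allL_iff.mp
    ((bimp_iff _ _).mp (allL_iff.mp (allL_iff.mp h5 b hb) c hc) (h4 b hb c hc hu hv huv)) e he)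
    (h4 b hb e he hu hw huw)) (h4 c hc e he hv hw hvw))
  rw [band_eq, Bool.and_eq_true, Nat.beq_eq] at h6
  refine ⟨q, hq, Finset.eq_of_subset_of_card_le (subset_trans ?_ (fam_subset h6.2))
    (by rw [hQ.1, ← h6.1]; exact card_fam_le q)⟩
  rw [← Finset.insert_erase h, h2]
  simp [fam]

theorem ofMask_seven : gE.ofMask 7 = {gE.pt 0, gE.pt 1, gE.pt 2} := by decide +kernel

theorem flag_d_triple {d t : Finset GolayPt} (hd : d ∈ dodecads) (ht : t.card = 3) (h : t ⊆ d) :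
    ∃ g : M24, g • d = gE.ofMask d0 ∧ g • t = gE.ofMask 7 := by
  obtain ⟨a, b, c, hab, hac, hbc, rfl⟩ := Finset.card_eq_three.mp ht
  obtain ⟨g, hg, h0, h1, h2, h3⟩ := flag_d_in3 hd (h (by simp)) (h (by simp)) (h (by simp))
    hab hac hbc
  refine ⟨⟨g, hg⟩, h0, ?_⟩
  rw [ofMask_seven, Finset.smul_finset_insert, Finset.smul_finset_insert,
    Finset.smul_finset_singleton, ← h1, ← h2, ← h3]
  rfl

theorem q0_mem : fam q0 ∈ quartets (gE.ofMask d0) := fam_mem_quartets (by decide +kernel)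

/-- `M24` is transitive on pairs of a dodecad and one of its quartets. -/
theorem trans_quartet {d : Finset GolayPt} (hd : d ∈ dodecads) {Q : Finset (Finset GolayPt)}
    (hQ : Q ∈ quartets d) : ∃ g : M24, g • d = gE.ofMask d0 ∧ g • Q = fam q0 := by
  obtain ⟨t, ht⟩ := Finset.card_pos.mp (by rw [hQ.1]; norm_num : 0 < Q.card)
  obtain ⟨g, h0, h1⟩ := flag_d_triple hd (hQ.2.1 t ht).1 (hQ.2.1 t ht).2
  have h2 : g • Q ∈ quartets (gE.ofMask d0) := h0 ▸ smul_mem_quartets g.2 hQ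
  obtain ⟨q, hq, h3⟩ := quartet_cases h2 (h1 ▸ Finset.smul_mem_smul_finset ht)
  have h4 : allL q4 (fun q => anyL [0xbdab49ca307b9ac5a928398a418820, 0x89d77aca6975906514707928d60440, 0xab8b35496c3bd2da5cc3b223020440, 0x2be2abca8db1cc99d50470d6c80820]
    fun p => band (memCfg [] [d0] p) (allL (pushL p q) (memL q0))) = true := by decide +kernel
  obtain ⟨p, -, h5⟩ := anyL_iff.mp (allL_iff.mp h4 q hq)
  rw [band_eq, Bool.and_eq_true] at h5
  obtain ⟨k, hk, h6⟩ := sound_stab_d0 p h5.1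
  refine ⟨k * g, by rw [mul_smul, h0, hk], ?_⟩
  rw [mul_smul]
  refine Finset.eq_of_subset_of_card_le (by rw [h3, smul_fam h6]; exact fam_subset h5.2) ?_
  rw [Finset.card_smul_finset, h2.1, q0_mem.1]

/-- Membership test for the stabiliser of a quartet in the dodecad group. -/
def memQ (q : List ℕ) (p : ℕ) : Bool := band (allL (pushL p q) (memL q)) (memCfg [] [d0] p)

theorem sound_memQ (q : List ℕ) :
    gE.Sound (stabilizer M24 (gE.ofMask d0) ⊓ stabilizer M24 (fam q)) (memQ q) := fun p hp => by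
  rw [memQ, band_eq, Bool.and_eq_true] at hp
  obtain ⟨g, hg, h⟩ := sound_stab_d0 p hp.2
  exact ⟨g, ⟨hg, smul_fam_eq h hp.1⟩, h⟩

/-- The standard quartet group. -/
abbrev QG : Subgroup M24 := stabilizer M24 (gE.ofMask d0) ⊓ stabilizer M24 (fam q0)

/-- Orbit representatives of the quartet group on quartets. -/
def qReps : List (List ℕ) := [q0, [0x244, 0x1018, 0x10102, 0x42001], [0x105, 0x2202, 0x11010, 0x40048], [0xe, 0x241, 0x2110, 0x51000], [0x111, 0x2240, 0x11004, 0x4000a]]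

/-- All quartets. -/
def qAll : List (List ℕ) := CG.orbL kcg.one pushL q0 [0x9d0b7780e2aba49b28d0885686b083, 0xbd5d62922c5bc2899c4050e8d49a12]
  [(0, 4), (1, 5), (0, 5), (1, 6), (0, 6), (1, 7), (0, 7), (1, 8), (0, 7), (1, 8), (0, 8), (1, 9), (0, 9), (1, 10), (0, 10), (1, 11), (0, 11), (1, 12), (0, 12), (0, 12), (1, 13), (0, 13), (1, 14), (0, 14), (1, 15), (0, 15), (1, 16), (0, 16), (1, 17), (0, 17), (1, 18), (0, 18), (1, 19), (0, 19), (1, 20), (0, 20), (1, 21), (0, 21), (1, 22), (0, 22), (1, 23), (0, 23), (0, 22), (1, 23), (1, 23), (0, 22), (0, 22), (1, 23), (0, 23), (1, 24), (0, 24), (1, 25), (0, 25), (1, 26), (0, 26), (1, 27), (0, 27), (1, 28), (1, 28), (1, 28), (0, 28), (1, 29), (0, 29), (1, 30), (0, 30), (0, 30), (1, 31), (0, 31), (1, 32), (0, 32), (0, 32), (1, 33), (0, 33), (1, 34), (0, 34), (1, 35), (0, 35), (1, 36), (1, 36), (0, 35), (0, 33), (1, 34), (0, 34), (1, 35), (0, 35), (1, 36), (0, 36), (0, 36), (1, 37),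 (0, 37), (1, 38), (1, 38), (0, 38), (1, 38), (0, 38), (1, 39), (0, 39), (0, 38), (1, 39), (0, 39), (1, 40), (0, 40), (1, 41), (0, 41), (1, 42), (0, 42), (1, 43), (1, 43), (0, 43), (1, 44), (1, 44), (1, 44), (0, 44), (0, 44), (0, 43), (1, 44), (1, 44), (0, 44), (1, 45), (0, 45), (0, 45), (1, 46), (0, 46), (1, 47), (0, 47), (1, 47), (1, 47), (0, 46), (1, 47), (0, 47), (1, 48), (0, 48), (0, 48), (1, 49), (0, 49), (0, 49), (1, 50), (0, 50), (1, 51), (0, 51), (1, 52), (0, 52), (1, 53), (0, 53), (1, 54), (1, 54), (0, 54), (0, 54), (1, 53), (0, 53), (0, 53), (1, 54), (0, 54), (0, 53), (0, 53), (0, 53), (0, 53), (0, 53), (0, 53), (1, 53), (1, 53), (0, 53), (0, 53), (1, 54), (0, 54), (1, 52), (0, 52), (1, 53), (0, 52), (1, 53), (1, 50), (0, 50), (1, 51), (1, 50), (1, 50), (0, 49), (1, 48), (0, 48), (1, 49), (0, 49), (1, 50), (0, 50), (0, 50), (1, 51), (0, 51), (1, 52), (1, 51), (1, 51), (1, 51), (0, 51), (1, 49), (0, 49), (1, 47),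 (0, 46), (0, 46), (1, 47), (0, 46), (1, 46), (0, 46), (1, 45), (0, 45), (0, 44), (1, 43), (0, 41), (0, 39), (1, 40), (0, 39), (1, 36), (0, 33), (1, 30), (0, 29), (1, 28), (0, 22), (0, 17), (1, 12)]
  qReps

theorem orbit_subset_quartets {X : Finset (Finset GolayPt)} (hX : X ∈ quartets (gE.ofMask d0)) :
    orbit QG X ⊆ quartets (gE.ofMask d0) := by
  rintro _ ⟨g, rfl⟩
  have := smul_mem_quartets (g : M24).2 hX
  rwa [show ((g : M24) : Equiv.Perm GolayPt) • gE.ofMask d0 = gE.ofMask d0 from g.2.1] at this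

theorem le_ncard_orbits : 220 ≤ {X | ∃ r ∈ qReps, X ∈ orbit QG (fam r)}.ncard := by
  have h1 : ∀ q ∈ qAll, ∃ r ∈ qReps, fam q ∈ orbit QG (fam r) :=
    kcg.orbL_spec (K := QG) pushL (fun q => ∃ r ∈ qReps, fam q ∈ orbit QG (fam r))
      (by
        rintro g hg c hc q ⟨r, hr, h⟩
        exact ⟨r, hr, smul_fam hc q ▸ mem_orbit_of_mem_orbit (⟨g, hg⟩ : QG) h⟩)
      ⟨q0, List.mem_cons_self, mem_orbit_self _⟩ ((sound_memQ q0).gens (by decide +kernel)) _
      fun r hr => ⟨r, hr, mem_orbit_self _⟩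
  have h2 : allL qAll (fun q => allL q fun m => Nat.blt m 16777216) = true := by decide +kernel
  have h3 : pairwiseL (fun a b => anyL a fun m => bnot (memL b m)) qAll = true := by decide +kernel
  refine le_trans (by decide +kernel) (length_le_ncard (Set.toFinite _)
    (fun X q => X = fam q ∧ ∀ m ∈ q, m < 2 ^ 24) (l := qAll) (fun q hq => ⟨_, h1 q hq, rfl,
      fun m hm => Nat.blt_eq.mp (allL_iff.mp (allL_iff.mp h2 q hq) m hm)⟩)
    ((pairwise_of_pairwiseL h3).imp ?_))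
  rintro a b h X ⟨rfl, ha⟩ ⟨h4, hb⟩
  obtain ⟨m, hm, h5⟩ := anyL_iff.mp h
  have h6 := ofMask_mem_fam hm
  rw [h4, ofMask_mem_fam_iff hb (ha m hm), ← memL_iff] at h6
  simp [h6] at h5

theorem qReps_mem : ∀ r ∈ qReps, fam r ∈ quartets (gE.ofMask d0) := fun r hr =>
  fam_mem_quartets (allL_iff.mp (by decide +kernel : allL qReps qOK = true) r hr)

/-- A chain for the quartet group. -/
def LQ : List (CG.Level ℕ) :=
  [(0, [0x75e93a89415d90629da9881f090c8c],
     [(0, 0), (0, 0), (1, 1), (3, 2), (1, 2), (2, 3), (3, 4), (0, 4), (0, 3), (1, 3), (0, 3)]),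
   (3, [0xb5dd4799509d4895c5833c8ad40820],
     [(0, 0), (1, 0), (2, 1), (0, 1), (2, 2), (0, 2), (1, 2), (2, 1)]),
   (6, [0x2ceb4b36295ba4c79e06522e418440, 0x2be955ca26b39a49a9093c2ec18440],
     [(0, 0), (1, 1), (1, 1)])]

theorem card_QG_and : Nat.card QG = 432 ∧ (quartets (gE.ofMask d0)).ncard = 220 := by
  have h1 := card_eq_of_orbit_eq (stabilizer M24 (gE.ofMask d0)) (fam q0) (quartets (gE.ofMask d0))
    (fun g hg => by
      have := smul_mem_quartets g.2 q0_mem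
      rwa [show (g : Equiv.Perm GolayPt) • gE.ofMask d0 = gE.ofMask d0 from hg] at this)
    (fun Q hQ => by
      obtain ⟨g, h1, h2⟩ := trans_quartet d0_mem hQ
      exact ⟨g⁻¹, inv_mem h1, by rw [← h2, inv_smul_smul]⟩)
  have h2 : 432 ≤ Nat.card QG := (CG.le_card_of_check (kcg_keyed.sub QG)
    (vt_of_sound (sound_memQ q0)) (N := kcg) rfl (L := LQ) (by decide +kernel)).trans
    (Subgroup.card_le_card_group _)
  have h3 : 220 ≤ (quartets (gE.ofMask d0)).ncard := le_ncard_orbits.trans (Set.ncard_le_ncard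
    (by rintro X ⟨r, hr, h⟩; exact orbit_subset_quartets (qReps_mem r hr) h) (Set.toFinite _))
  rw [card_stab_d0] at h1
  constructor <;> nlinarith

theorem card_QG : Nat.card QG = 432 := card_QG_and.1

theorem ncard_quartets_d0 : (quartets (gE.ofMask d0)).ncard = 220 := card_QG_and.2

theorem quartets_eq_orbits :
    quartets (gE.ofMask d0) = {X | ∃ r ∈ qReps, X ∈ orbit QG (fam r)} :=
  (Set.eq_of_subset_of_ncard_le
    (by rintro X ⟨r, hr, h⟩; exact orbit_subset_quartets (qReps_mem r hr) h)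
    (ncard_quartets_d0 ▸ le_ncard_orbits) (Set.toFinite _)).symm

end Cfsg.Agent.H4
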