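/-
Sextets: the sextet determined by a tetrad, transitivity, the order of the stabiliser, orbits.
-/
import Cfsg.Agent.H4.Max

set_option autoImplicit false
set_option maxRecDepth 100000

open scoped Pointwise
open MulAction

namespace Cfsg.Agent.H4

open Classical in
/-- The tetrads congruent to `t` modulo the code. -/
noncomputable def sextetOf (t : Finset GolayPt) : Finset (Finset GolayPt) :=
  Finset.univ.filter fun u => u.card = 4 ∧ symmDiff u t ∈ Code

theorem mem_sextetOf {t u : Finset GolayPt} :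
    u ∈ sextetOf t ↔ u.card = 4 ∧ symmDiff u t ∈ Code := by simp [sextetOf]

theorem mem_sextetOf_iff_syn {t u : Finset GolayPt} :
    u ∈ sextetOf t ↔ u.card = 4 ∧ syn (gE.toMask u) = syn (gE.toMask t) := by
  rw [mem_sextetOf, syn_toMask_eq_iff]

theorem self_mem_sextetOf {t : Finset GolayPt} (ht : t.card = 4) : t ∈ sextetOf t :=
  mem_sextetOf_iff_syn.mpr ⟨ht, rfl⟩

theorem sextetOf_eq_of_syn {t u : Finset GolayPt}
    (h : syn (gE.toMask t) = syn (gE.toMask u)) : sextetOf t = sextetOf u := by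
  ext v; rw [mem_sextetOf_iff_syn, mem_sextetOf_iff_syn, h]

theorem smul_sextetOf {g : Equiv.Perm GolayPt} (hg : g ∈ M24) (t : Finset GolayPt) :
    g • sextetOf t = sextetOf (g • t) := by
  ext u
  rw [← Finset.inv_smul_mem_iff, mem_sextetOf, mem_sextetOf, Finset.card_smul_finset,
    ← smul_mem_code_iff hg, smul_symmDiff', smul_inv_smul]

/-- The mask of the standard tetrad. -/
def t0 : ℕ := 0x800007

theorem card_t0 : (gE.ofMask t0).card = 4 := by rw [gE.card_ofMask]; decide +kernel

theorem card_sextetOf {t : Finset GolayPt} (ht : t.card = 4) : (sextetOf t).card = 6 := by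
  obtain ⟨g, hg, h⟩ := trans_set4 ht
  rw [← Finset.card_smul_finset g, smul_sextetOf hg, h, ← Set.ncard_coe_finset,
    gE.ncard_sub 4 (fun m => Nat.beq (syn m) (syn 0x800007)) (fun s hs => (mem_sextetOf.mp hs).1)
      fun m hm h1 => by
        rw [Finset.mem_coe, mem_sextetOf_iff_syn, gE.toMask_ofMask hm,
          gE.toMask_ofMask (by norm_num), gE.card_ofMask]
        simp [h1]]
  decide +kernel

theorem union_eq_symmDiff_of_card {α : Type*} [DecidableEq α] {s t : Finset α}
    (h : (s ∩ t).card = 0) : s ∪ t = symmDiff s t := by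
  rw [Finset.card_eq_zero] at h
  ext x
  have : ¬ (x ∈ s ∧ x ∈ t) := by rw [← Finset.mem_inter, h]; simp
  simp only [Finset.mem_union, Finset.mem_symmDiff]
  tauto

theorem sextetOf_mem {t : Finset GolayPt} (ht : t.card = 4) : sextetOf t ∈ sextets := by
  refine ⟨card_sextetOf ht, fun u hu => (mem_sextetOf.mp hu).1, fun u hu v hv hne => ?_⟩
  rw [mem_sextetOf_iff_syn] at hu hv
  have h1 : symmDiff u v ∈ Code := (syn_toMask_eq_iff u v).mp (hu.2.trans hv.2.symm)
  have h2 := card_symmDiff_add u v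
  have h3 := card_of_mem_code h1
  have h4 : (symmDiff u v).card ≠ 0 := fun h =>
    hne (symmDiff_eq_bot.mp (Finset.card_eq_zero.mp h))
  rw [hu.1, hv.1] at h2
  rw [union_eq_symmDiff_of_card (by omega)]
  exact ⟨h1, by omega⟩

theorem sextet_inter_card {S : Finset (Finset GolayPt)} (hS : S ∈ sextets) {t u : Finset GolayPt}
    (ht : t ∈ S) (hu : u ∈ S) (hne : t ≠ u) : (t ∩ u).card = 0 := by
  have h1 := (hS.2.2 t ht u hu hne).2
  have h2 := Finset.card_union_add_card_inter t u
  rw [hS.2.1 t ht, hS.2.1 u hu] at h2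
  omega

theorem eq_sextetOf {S : Finset (Finset GolayPt)} (hS : S ∈ sextets) {t : Finset GolayPt}
    (ht : t ∈ S) : S = sextetOf t := by
  apply Finset.eq_of_subset_of_card_le
  · intro u hu
    refine mem_sextetOf.mpr ⟨hS.2.1 u hu, ?_⟩
    by_cases h : u = t
    · rw [h, symmDiff_self]; exact empty_mem_code
    · rw [← union_eq_symmDiff_of_card (sextet_inter_card hS hu ht h)]
      exact (hS.2.2 u hu t ht h).1
  · rw [card_sextetOf (hS.2.1 t ht), hS.1]

theorem exists_mem_sextet {S : Finset (Finset GolayPt)} (hS : S ∈ sextets) (p : GolayPt) :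
    ∃ t ∈ S, p ∈ t := by
  have h1 : (S.biUnion id).card = 24 := by
    rw [Finset.card_biUnion]
    · simp only [id]
      rw [Finset.sum_congr rfl fun t ht => hS.2.1 t ht, Finset.sum_const, hS.1]; rfl
    · intro t ht u hu hne
      exact Finset.disjoint_iff_inter_eq_empty.mpr
        (Finset.card_eq_zero.mp (sextet_inter_card hS ht hu hne))
  have h2 : S.biUnion id = Finset.univ := Finset.eq_univ_of_card _ (h1.trans card_golayPt.symm)
  have h3 : p ∈ S.biUnion id := h2 ▸ Finset.mem_univ p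
  simpa using h3

/-- The standard sextet. -/
noncomputable def sx0 : Finset (Finset GolayPt) := sextetOf (gE.ofMask t0)

theorem sx0_mem : sx0 ∈ sextets := sextetOf_mem card_t0

/-- `M24` is transitive on sextets. -/
theorem trans_sextet {S : Finset (Finset GolayPt)} (hS : S ∈ sextets) :
    ∃ g : M24, g • S = sx0 := by
  obtain ⟨t, ht, -⟩ := exists_mem_sextet hS none
  obtain ⟨g, hg, h⟩ := trans_set4 (hS.2.1 t ht)
  refine ⟨⟨g, hg⟩, ?_⟩
  rw [eq_sextetOf hS ht, sx0, t0, ← h]
  exact smul_sextetOf hg t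

theorem orbit_sx0 : orbit M24 sx0 = sextets := by
  ext S
  constructor
  · rintro ⟨g, rfl⟩; exact smul_mem_sextets g.2 sx0_mem
  · intro hS
    obtain ⟨g, h⟩ := trans_sextet hS
    exact ⟨g⁻¹, by simp only [← h, inv_smul_smul]⟩

theorem smul_sextetOf_ofMask {g : M24} {p : ℕ} (hg : gE.RepA g p) (m : ℕ) :
    g • sextetOf (gE.ofMask m) = sextetOf (gE.ofMask (push 24 5 p m)) := by
  rw [← Enc.Rep.smul_ofMask hg]
  exact smul_sextetOf g.2 _

theorem sextetOf_ofMask_eq {a b : ℕ} (ha : a < 2 ^ 24) (hb : b < 2 ^ 24) (h : syn a = syn b) :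
    sextetOf (gE.ofMask a) = sextetOf (gE.ofMask b) :=
  sextetOf_eq_of_syn (by rwa [gE.toMask_ofMask ha, gE.toMask_ofMask hb])

/-- Membership test for the stabiliser of the sextet through the tetrad `t`. -/
def memSx (t p : ℕ) : Bool :=
  band (Nat.blt t 16777216) (band (Nat.beq (syn (push 24 5 p t)) (syn t)) (isM24 p))

theorem memSx_spec {t p : ℕ} (h : memSx t p = true) {g : M24} (hg : gE.RepA g p) :
    g ∈ stabilizer M24 (sextetOf (gE.ofMask t)) := by
  simp only [memSx, band_eq, Bool.and_eq_true, Nat.blt_eq, Nat.beq_eq] at h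
  rw [mem_stabilizer_iff, smul_sextetOf_ofMask hg]
  exact sextetOf_ofMask_eq (Enc.Rep.push_lt hg _) h.1 h.2.1

theorem isM24_of_memSx {t p : ℕ} (h : memSx t p = true) : isM24 p = true := by
  simp only [memSx, band_eq, Bool.and_eq_true] at h
  exact h.2.2

theorem sound_memSx (t : ℕ) : gE.Sound (stabilizer M24 (sextetOf (gE.ofMask t))) (memSx t) :=
  fun p hp => by
    obtain ⟨g, hg⟩ := exists_M24_of_isM24 (isM24_of_memSx hp)
    exact ⟨g, memSx_spec hp hg, hg⟩

theorem card_eq_orbit_mul_stab {G X : Type*} [Group G] [MulAction G X] (x : X) :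
    Nat.card G = (orbit G x).ncard * Nat.card (stabilizer G x) := by
  rw [← index_stabilizer, mul_comm, Subgroup.card_mul_index]

theorem card_stab_t0 : Nat.card (stabilizer M24 (gE.ofMask t0)) = 23040 := by
  have h1 : orbit M24 (gE.ofMask t0) = {s | s.card = 4} := by
    ext s
    constructor
    · rintro ⟨g, rfl⟩
      exact (Finset.card_smul_finset _ _).trans card_t0
    · intro hs
      obtain ⟨g, hg, h⟩ := trans_set4 hs
      exact ⟨⟨g, hg⟩⁻¹, by rw [t0, ← h]; exact inv_smul_smul (⟨g, hg⟩ : M24) s⟩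
  have h2 : {s : Finset GolayPt | s.card = 4}.ncard = 10626 := by
    rw [gE.ncard_sub (A := {s : Finset GolayPt | s.card = 4}) 4 (fun _ => true) (fun s hs => hs)
      fun m hm h => by
        simp [gE.card_ofMask, h]]
    decide +kernel
  have h3 := card_eq_orbit_mul_stab (G := M24) (gE.ofMask t0)
  rw [h1, h2, card_M24] at h3
  omega

/-- A stabiliser chain for the sextet group. -/
def sxChain : List (ℕ × List ℕ) :=
  [(0, [0x7deae3a2c11c012644ab998826d12a, 0xa8a43635e02a6f683a245a141a18f3]),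
   (3, [0x159115d0ed29a0a7b86993264adc20, 0xbcaae3a6cb2918f50e34999a880440]),
   (4, [0xbc2954c9d6345ac41e6b53ca418440, 0x14a64ad1ccb156a4b60f31e28186e0]),
   (7, [0xd96763cb0345a955674449c41dc40, 0x1419543e2d33ad44ccea5c8a4186e0]),
   (1, [0xbda68abcad93a0a4b17439a2418440])]

theorem card_stab_sx0 : Nat.card (stabilizer M24 sx0) = 138240 := by
  apply le_antisymm
  · refine le_trans (card_le_of_orbit_subset _ (gE.ofMask t0) sx0 (Finset.finite_toSet _) ?_) ?_
    · intro g hg
      rw [Finset.mem_coe, ← mem_stabilizer_iff.mp hg]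
      exact Finset.smul_mem_smul_finset (self_mem_sextetOf card_t0)
    · rw [Set.ncard_coe_finset, sx0_mem.1]
      have := Subgroup.card_le_of_le (inf_le_right :
        stabilizer M24 sx0 ⊓ stabilizer M24 (gE.ofMask t0) ≤ _)
      rw [card_stab_t0] at this
      omega
  · exact le_trans (by decide +kernel) (Enc.chainLB_le 5 sxChain _ _ (sound_memSx t0))

theorem ncard_sextets : sextets.ncard = 1771 := by
  have h3 := card_eq_orbit_mul_stab (G := M24) sx0
  rw [orbit_sx0, card_stab_sx0, card_M24] at h3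
  omega

theorem card_stab_sextet {S : Finset (Finset GolayPt)} (hS : S ∈ sextets) :
    Nat.card (stabilizer M24 S) = 138240 := by
  obtain ⟨g, h⟩ := trans_sextet hS
  rw [← card_stab_sx0, ← h, stabilizer_smul_eq_stabilizer_map_conj]
  exact Nat.card_congr ((MulAut.conj g).subgroupMap _).toEquiv

/-- The masks of the six tetrads of the standard sextet. -/
def sxL : List ℕ := [0x800007, 0x24028, 0x412010, 0x2800c0, 0x41900, 0x108600]

theorem mem_sx0 {u : Finset GolayPt} : u ∈ sx0 ↔ ∃ i, i < 6 ∧ gE.ofMask (getL 0 sxL i) = u := by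
  have h : sx0 = (Finset.range 6).image fun i => gE.ofMask (getL 0 sxL i) := by
    symm
    apply Finset.eq_of_subset_of_card_le
    · intro u hu
      obtain ⟨i, hi, rfl⟩ := Finset.mem_image.mp hu
      have h1 : allLt 6 (fun i => band (Nat.blt (getL 0 sxL i) 16777216)
          (band (Nat.beq (pc 24 (getL 0 sxL i)) 4) (Nat.beq (syn (getL 0 sxL i)) (syn t0)))) = true := by
        decide +kernel
      have h2 := allLt_iff.mp h1 i (Finset.mem_range.mp hi)
      simp only [band_eq, Bool.and_eq_true, Nat.blt_eq, Nat.beq_eq] at h2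
      rw [sx0, mem_sextetOf_iff_syn, gE.toMask_ofMask h2.1, gE.toMask_ofMask (by decide),
        gE.card_ofMask]
      exact h2.2
    · rw [sx0_mem.1]; decide +kernel
  rw [h]; simp

/-- The descent step for the sextet through the tetrad `m`. -/
def stepS (reps gens : List ℕ) (R m : ℕ) : Bool :=
  bor (anyL reps fun r => band (Nat.blt r 16777216) (Nat.beq (syn r) (syn m))) (anyL gens fun p =>
    Nat.blt (img (nat_lit 5) R (syn (pull 24 5 p m))) (img (nat_lit 5) R (syn m)))

open Classical in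
/-- The syndrome of a sextet. -/
noncomputable def ssyn (S : Finset (Finset GolayPt)) : ℕ :=
  if h : S.Nonempty then syn (gE.toMask h.choose) else 0

theorem ssyn_eq {S : Finset (Finset GolayPt)} (hS : S ∈ sextets) {t : Finset GolayPt}
    (ht : t ∈ S) : ssyn S = syn (gE.toMask t) := by
  have h : S.Nonempty := ⟨t, ht⟩
  rw [ssyn, dif_pos h]
  have h1 := (eq_sextetOf hS ht).le h.choose_spec
  exact (mem_sextetOf_iff_syn.mp h1).2

/-- Orbits on sextets. -/
theorem orbits_sextet {K : Subgroup M24} {mem : ℕ → Bool} (hmem : gE.Sound K mem)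
    {reps gens : List ℕ} {R : ℕ}
    (h : band (allL gens mem) (Nat.beq (sumSub 3 23 8388608 fun m =>
      b2n (bnot (stepS reps gens R m))) 0) = true) :
    ∀ S ∈ sextets, ∃ g ∈ K, ∃ r ∈ reps, g • S = sextetOf (gE.ofMask r) := by
  rw [band_eq, Bool.and_eq_true] at h
  refine descent K (· ∈ sextets) (fun S => ∃ r ∈ reps, S = sextetOf (gE.ofMask r))
    (fun S => img 5 R (ssyn S)) ?_
  intro S hS
  obtain ⟨t, ht, hp⟩ := exists_mem_sextet hS (gE.pt 23)
  have h1 := forall_sub_inf 3 _ h.2 t (hS.2.1 t ht) hp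
  simp only [stepS, bor_eq, band_eq, Bool.or_eq_true, Bool.and_eq_true, anyL_iff, Nat.blt_eq,
    Nat.beq_eq] at h1
  rcases h1 with ⟨r, hr, h1, h2⟩ | ⟨p, hp, h1⟩
  · refine Or.inl ⟨r, hr, (eq_sextetOf hS ht).trans (sextetOf_eq_of_syn ?_)⟩
    rw [gE.toMask_ofMask h1, h2]
  · obtain ⟨g, hgK, hgp⟩ := hmem.gens h.1 p hp
    have h2 : g⁻¹ • S ∈ sextets := smul_mem_sextets (g⁻¹).2 hS
    refine Or.inr ⟨g⁻¹, K.inv_mem hgK, h2, ?_⟩
    rw [ssyn_eq hS ht, ssyn_eq h2 (Finset.smul_mem_smul_finset ht)]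
    have h3 : gE.toMask (g⁻¹ • t) = pull 24 5 p (gE.toMask t) := Enc.Rep.toMask_inv_smul hgp t
    rw [h3]
    exact h1

end Cfsg.Agent.H4
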