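import Cfsg.Agent.H4.Jan2

set_option autoImplicit false
set_option maxRecDepth 100000

namespace Cfsg.Agent.H4.Th

open Subgroup Cfsg.Agent.H5 Cfsg.Agent.H5.Mdl 

abbrev GA : Type := GL (Fin 248) (ZMod 3)
abbrev GB : Type := GL (Fin 40) (ZMod 2)
noncomputable abbrev φA : GA →* Matrix (Fin 248) (Fin 248) (ZMod 3) := Units.coeHom _
noncomputable abbrev φB : GB →* Matrix (Fin 40) (Fin 40) (ZMod 2) := Units.coeHom _
noncomputable abbrev mA := md3 (ZMod 3) 248 φA Units.val_injective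
noncomputable abbrev mB := md2 (ZMod 2) 40 φB Units.val_injective
theorem hb : (∀ a b, mB.mul a b < 2 ^ 1600) ∧ mB.one < 2 ^ 1600 :=
  ⟨fun a b => mul2_lt (n := 40) (by decide) a b, by decide +kernel⟩
noncomputable abbrev mP := pair mA mB 1600 hb
noncomputable abbrev ψB : GA × GB →* Matrix (Fin 40) (Fin 40) (ZMod 2) := φB.comp (MonoidHom.snd GA GB)
noncomputable abbrev ψA : GA × GB →* Matrix (Fin 248) (Fin 248) (ZMod 3) := φA.comp (MonoidHom.fst GA GB)
theorem hPB : ∀ g a, mP.φ g = mP.ev a → ψB g = ev2 (ZMod 2) 40 (lo 1600 a) := fun _ _ h => congrArg Prod.snd h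
theorem hPA : ∀ g a, mP.φ g = mP.ev a → ψA g = ev3 (ZMod 3) 248 (hi 1600 a) := fun _ _ h => congrArg Prod.fst h
theorem hA : ∀ g a, mA.φ g = mA.ev a → φA g = ev3 (ZMod 3) 248 ((fun a => a) a) := fun _ _ h => h
abbrev kA : ℕ → ℕ := pl1 (Nat.mul 248 248)
theorem keyA : Key mA kA := key3 _ _ _ _
noncomputable abbrev fst : GA × GB →* GA := MonoidHom.fst GA GB
theorem pf : Pr mP mA fst (hi 1600) := pr_fst mA mB 1600 hb

end Cfsg.Agent.H4.Th
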