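import Cfsg.Agent.H4.T2F

set_option autoImplicit false
set_option maxRecDepth 100000
set_option Elab.async false

namespace Cfsg.Agent.H4.Th

open Subgroup Cfsg.Agent.H5 Cfsg.Agent.H5.Mdl 

theorem VP_2 : rng VPf (nat_lit 2) (nat_lit 1) = 0 := by decide +kernel
theorem V3C_0 : rng V3Cf (nat_lit 0) (nat_lit 10) = 0 := by decide +kernel
theorem p2W_1 : rng p2Wf (nat_lit 2) (nat_lit 2) = 0 := by decide +kernel
theorem KGE_0 : rng KGEf (nat_lit 0) (nat_lit 2) = 0 := by decide +kernel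
theorem p0S_1 : rng p0Sf (nat_lit 3) (nat_lit 4) = 0 := by decide +kernel
theorem p0S_0 : rng p0Sf (nat_lit 0) (nat_lit 3) = 0 := by decide +kernel
theorem V3C_1 : rng V3Cf (nat_lit 10) (nat_lit 5) = 0 := by decide +kernel
theorem V3IE_1 : rng V3IEf (nat_lit 2) (nat_lit 2) = 0 := by decide +kernel
theorem V3IE_0 : rng V3IEf (nat_lit 0) (nat_lit 2) = 0 := by decide +kernel
theorem p2W_2 : rng p2Wf (nat_lit 4) (nat_lit 2) = 0 := by decide +kernel
theorem kkS_2 : rng kkSf (nat_lit 2) (nat_lit 1) = 0 := by decide +kernel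
theorem vBk_0 : rng vBkf (nat_lit 0) (nat_lit 64) = 0 := by decide +kernel
theorem vR2I_1 : rng vR2If (nat_lit 1) (nat_lit 1) = 0 := by decide +kernel
theorem V7IE_0 : rng V7IEf (nat_lit 0) (nat_lit 2) = 0 := by decide +kernel
theorem vL2C_0 : rng vL2Cf (nat_lit 0) (nat_lit 2) = 0 := by decide +kernel
theorem vL3C_0 : rng vL3Cf (nat_lit 0) (nat_lit 2) = 0 := by decide +kernel
theorem W3C_3 : rng W3Cf (nat_lit 24) (nat_lit 1) = 0 := by decide +kernel
theorem vRHO_0 : rngB vRHOf (nat_lit 288) (nat_lit 0) (nat_lit 5) = 0 := by decide +kernel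
theorem vL2E_0 : rng vL2Ef (nat_lit 0) (nat_lit 2) = 0 := by decide +kernel
theorem P1I_0 : rng P1If (nat_lit 0) (nat_lit 2) = 0 := by decide +kernel
theorem V3RO_0 : rngB V3ROf (nat_lit 81) (nat_lit 0) (nat_lit 2) = 0 := by decide +kernel
theorem vL31RO_0 : rngB vL31ROf (nat_lit 126) (nat_lit 0) (nat_lit 2) = 0 := by decide +kernel
theorem vL30X_0 : rng vL30Xf (nat_lit 0) (nat_lit 4) = 0 := by decide +kernel
theorem p0T0 : p0T 0 = (one2 (nat_lit 248)) := by decide +kernel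
theorem vcx : pt (row3 (nat_lit 248)) vL30y (nat_lit 0) = pt (row3 (nat_lit 248)) vcy (nat_lit 45) := by decide +kernel
theorem vL10RO_0 : rngB vL10ROf (nat_lit 16) (nat_lit 0) (nat_lit 1) = 0 := by decide +kernel
theorem V7RO_0 : rngB V7ROf (nat_lit 49) (nat_lit 0) (nat_lit 1) = 0 := by decide +kernel
theorem vtt : (mul3 (nat_lit 248)) (vD 1) (vD 1) = (one2 (nat_lit 248)) := by decide +kernel
theorem vL12RO_0 : rngB vL12ROf (nat_lit 7) (nat_lit 0) (nat_lit 1) = 0 := by decide +kernel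
theorem W3ZY_0 : rngB W3ZYf (nat_lit 243) (nat_lit 0) (nat_lit 4) = 0 := by decide +kernel
theorem vL20yY_0 : rngB vL20yYf (nat_lit 128) (nat_lit 0) (nat_lit 2) = 0 := by decide +kernel
theorem vL10yY_0 : rngB vL10yYf (nat_lit 16) (nat_lit 0) (nat_lit 1) = 0 := by decide +kernel
theorem vL21yY_0 : rngB vL21yYf (nat_lit 7) (nat_lit 0) (nat_lit 1) = 0 := by decide +kernel
theorem V7ZY_0 : rngB V7ZYf (nat_lit 49) (nat_lit 0) (nat_lit 1) = 0 := by decide +kernel

end Cfsg.Agent.H4.Th
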