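import Cfsg.Agent.H4.T2F

set_option autoImplicit false
set_option maxRecDepth 100000
set_option Elab.async false

namespace Cfsg.Agent.H4.Th

open Subgroup Cfsg.Agent.H5 Cfsg.Agent.H5.Mdl 

theorem VP_1 : rng VPf (nat_lit 1) (nat_lit 1) = 0 := by decide +kernel
theorem W3C_0 : rng W3Cf (nat_lit 0) (nat_lit 12) = 0 := by decide +kernel
theorem vR2I_2 : rng vR2If (nat_lit 2) (nat_lit 2) = 0 := by decide +kernel
theorem vR3I_0 : rng vR3If (nat_lit 0) (nat_lit 2) = 0 := by decide +kernel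
theorem vR1I_0 : rng vR1If (nat_lit 0) (nat_lit 2) = 0 := by decide +kernel
theorem p2W_3 : rng p2Wf (nat_lit 6) (nat_lit 2) = 0 := by decide +kernel
theorem vL1W_0 : rng vL1Wf (nat_lit 0) (nat_lit 4) = 0 := by decide +kernel
theorem KGE_1 : rng KGEf (nat_lit 2) (nat_lit 2) = 0 := by decide +kernel
theorem W3IE_0 : rng W3IEf (nat_lit 0) (nat_lit 2) = 0 := by decide +kernel
theorem vL2W_0 : rng vL2Wf (nat_lit 0) (nat_lit 2) = 0 := by decide +kernel
theorem vR1O_0 : rngB vR1Of (nat_lit 288) (nat_lit 0) (nat_lit 5) = 0 := by decide +kernel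
theorem vL1C_0 : rng vL1Cf (nat_lit 0) (nat_lit 3) = 0 := by decide +kernel
theorem p1S_1 : rng p1Sf (nat_lit 5) (nat_lit 3) = 0 := by decide +kernel
theorem vL3W_0 : rng vL3Wf (nat_lit 0) (nat_lit 2) = 0 := by decide +kernel
theorem p0S_2 : rng p0Sf (nat_lit 7) (nat_lit 2) = 0 := by decide +kernel
theorem W3RO_0 : rngB W3ROf (nat_lit 243) (nat_lit 0) (nat_lit 4) = 0 := by decide +kernel
theorem V3C_2 : rng V3Cf (nat_lit 15) (nat_lit 1) = 0 := by decide +kernel
theorem vDI_0 : rng vDIf (nat_lit 0) (nat_lit 4) = 0 := by decide +kernel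
theorem p1G_0 : rng p1Gf (nat_lit 0) (nat_lit 2) = 0 := by decide +kernel
theorem P0I_0 : rng P0If (nat_lit 0) (nat_lit 2) = 0 := by decide +kernel
theorem P2I_0 : rng P2If (nat_lit 0) (nat_lit 2) = 0 := by decide +kernel
theorem p2S_1 : rng p2Sf (nat_lit 6) (nat_lit 1) = 0 := by decide +kernel
theorem p2T0 : p2T 0 = (one2 (nat_lit 248)) := by decide +kernel
theorem vD0 : vD 0 = (one2 (nat_lit 248)) := by decide +kernel
theorem kkT0 : kkT 0 = (one2 (nat_lit 248)) := by decide +kernel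
theorem vL32RO_0 : rngB vL32ROf (nat_lit 4) (nat_lit 0) (nat_lit 1) = 0 := by decide +kernel
theorem vL11X_0 : rng vL11Xf (nat_lit 0) (nat_lit 2) = 0 := by decide +kernel
theorem vL31X_0 : rng vL31Xf (nat_lit 0) (nat_lit 2) = 0 := by decide +kernel
theorem vcAB : (mul3 (nat_lit 248)) (vcm 0) (vcm 1) = (one2 (nat_lit 248)) := by decide +kernel
theorem vL30RO_0 : rngB vL30ROf (nat_lit 1) (nat_lit 0) (nat_lit 1) = 0 := by decide +kernel
theorem vL31yY_0 : rngB vL31yYf (nat_lit 126) (nat_lit 0) (nat_lit 2) = 0 := by decide +kernel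
theorem vL12yY_0 : rngB vL12yYf (nat_lit 7) (nat_lit 0) (nat_lit 1) = 0 := by decide +kernel
theorem vL30yY_0 : rngB vL30yYf (nat_lit 1) (nat_lit 0) (nat_lit 1) = 0 := by decide +kernel

end Cfsg.Agent.H4.Th
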