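import Cfsg.Agent.H4.T2F

set_option autoImplicit false
set_option maxRecDepth 100000
set_option Elab.async false

namespace Cfsg.Agent.H4.Th

open Subgroup Cfsg.Agent.H5 Cfsg.Agent.H5.Mdl 

theorem VP_0 : rng VPf (nat_lit 0) (nat_lit 1) = 0 := by decide +kernel
theorem vR2O_0 : rngB vR2Of (nat_lit 288) (nat_lit 0) (nat_lit 5) = 0 := by decide +kernel
theorem p1S_0 : rng p1Sf (nat_lit 0) (nat_lit 5) = 0 := by decide +kernel
theorem p2S_0 : rng p2Sf (nat_lit 0) (nat_lit 6) = 0 := by decide +kernel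
theorem W3C_2 : rng W3Cf (nat_lit 18) (nat_lit 6) = 0 := by decide +kernel
theorem p2W_0 : rng p2Wf (nat_lit 0) (nat_lit 2) = 0 := by decide +kernel
theorem W3C_1 : rng W3Cf (nat_lit 12) (nat_lit 6) = 0 := by decide +kernel
theorem vR3O_0 : rngB vR3Of (nat_lit 288) (nat_lit 0) (nat_lit 5) = 0 := by decide +kernel
theorem W3IE_1 : rng W3IEf (nat_lit 2) (nat_lit 2) = 0 := by decide +kernel
theorem kkS_1 : rng kkSf (nat_lit 1) (nat_lit 1) = 0 := by decide +kernel
theorem V13 : chkQW (mul3 (nat_lit 248)) (one2 (nat_lit 248)) kA Vg [nat_lit 0, nat_lit 0, nat_lit 2, nat_lit 1, nat_lit 0] 13 = 0 := by decide +kernel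
theorem V7C_0 : rng V7Cf (nat_lit 0) (nat_lit 4) = 0 := by decide +kernel
theorem vR2I_0 : rng vR2If (nat_lit 0) (nat_lit 1) = 0 := by decide +kernel
theorem kkS_0 : rng kkSf (nat_lit 0) (nat_lit 1) = 0 := by decide +kernel
theorem vR1I_1 : rng vR1If (nat_lit 2) (nat_lit 1) = 0 := by decide +kernel
theorem W3IE_2 : rng W3IEf (nat_lit 4) (nat_lit 1) = 0 := by decide +kernel
theorem vcO_0 : rngB vcOf (nat_lit 248) (nat_lit 0) (nat_lit 4) = 0 := by decide +kernel
theorem vL1E_0 : rng vL1Ef (nat_lit 0) (nat_lit 3) = 0 := by decide +kernel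
theorem vL3E_0 : rng vL3Ef (nat_lit 0) (nat_lit 2) = 0 := by decide +kernel
theorem p0G_0 : rng p0Gf (nat_lit 0) (nat_lit 2) = 0 := by decide +kernel
theorem vL11RO_0 : rngB vL11ROf (nat_lit 128) (nat_lit 0) (nat_lit 2) = 0 := by decide +kernel
theorem vL20RO_0 : rngB vL20ROf (nat_lit 128) (nat_lit 0) (nat_lit 2) = 0 := by decide +kernel
theorem vL10X_0 : rng vL10Xf (nat_lit 0) (nat_lit 4) = 0 := by decide +kernel
theorem p1T0 : p1T 0 = (one2 (nat_lit 248)) := by decide +kernel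
theorem vhx : pt (row3 (nat_lit 248)) vL10y (nat_lit 5) = pt (row3 (nat_lit 248)) Yv (nat_lit 88) := by decide +kernel
theorem vcV_0 : rng vcVf (nat_lit 0) (nat_lit 248) = 0 := by decide +kernel
theorem vL20X_0 : rng vL20Xf (nat_lit 0) (nat_lit 2) = 0 := by decide +kernel
theorem YvY_0 : rngB YvYf (nat_lit 288) (nat_lit 0) (nat_lit 5) = 0 := by decide +kernel
theorem vL21RO_0 : rngB vL21ROf (nat_lit 7) (nat_lit 0) (nat_lit 1) = 0 := by decide +kernel
theorem KE_0 : rng KEf (nat_lit 0) (nat_lit 3) = 0 := by decide +kernel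
theorem vL11yY_0 : rngB vL11yYf (nat_lit 128) (nat_lit 0) (nat_lit 2) = 0 := by decide +kernel
theorem V3ZY_0 : rngB V3ZYf (nat_lit 81) (nat_lit 0) (nat_lit 2) = 0 := by decide +kernel
theorem vL32yY_0 : rngB vL32yYf (nat_lit 4) (nat_lit 0) (nat_lit 1) = 0 := by decide +kernel

end Cfsg.Agent.H4.Th
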