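import Cfsg.Agent.H4.T3F

set_option autoImplicit false
set_option maxRecDepth 100000
set_option Elab.async false

namespace Cfsg.Agent.H4.Th

open Subgroup Cfsg.Agent.H5 Cfsg.Agent.H5.Mdl 

theorem R3C_0 : rng R3Cf (nat_lit 0) (nat_lit 15) = 0 := by decide +kernel
theorem nQJ_0 : rng nQJf (nat_lit 0) (nat_lit 9) = 0 := by decide +kernel
theorem nQJ_1 : rng nQJf (nat_lit 9) (nat_lit 9) = 0 := by decide +kernel
theorem kS_1 : rng kSf (nat_lit 1) (nat_lit 2) = 0 := by decide +kernel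
theorem kS_2 : rng kSf (nat_lit 3) (nat_lit 2) = 0 := by decide +kernel
theorem CO_0 : rng COf (nat_lit 0) (nat_lit 13) = 0 := by decide +kernel
theorem CO_1 : rng COf (nat_lit 13) (nat_lit 13) = 0 := by decide +kernel
theorem ES_0 : rng ESf (nat_lit 0) (nat_lit 18) = 0 := by decide +kernel
theorem ES_1 : rng ESf (nat_lit 18) (nat_lit 14) = 0 := by decide +kernel
theorem ES_2 : rng ESf (nat_lit 32) (nat_lit 8) = 0 := by decide +kernel
theorem ES_4 : rng ESf (nat_lit 45) (nat_lit 7) = 0 := by decide +kernel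
theorem ES_5 : rng ESf (nat_lit 52) (nat_lit 6) = 0 := by decide +kernel
theorem ES_3 : rng ESf (nat_lit 40) (nat_lit 5) = 0 := by decide +kernel
theorem ES_6 : rng ESf (nat_lit 58) (nat_lit 5) = 0 := by decide +kernel
theorem FI_0 : rng FIf (nat_lit 0) (nat_lit 32) = 0 := by decide +kernel
theorem nEJ_0 : rng nEJf (nat_lit 0) (nat_lit 10) = 0 := by decide +kernel
theorem R3IE_0 : rng R3IEf (nat_lit 0) (nat_lit 4) = 0 := by decide +kernel
theorem kS_0 : rng kSf (nat_lit 0) (nat_lit 1) = 0 := by decide +kernel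
theorem nQJ_2 : rng nQJf (nat_lit 18) (nat_lit 6) = 0 := by decide +kernel
theorem kS_3 : rng kSf (nat_lit 5) (nat_lit 1) = 0 := by decide +kernel
theorem kS_6 : rng kSf (nat_lit 8) (nat_lit 1) = 0 := by decide +kernel
theorem kS_5 : rng kSf (nat_lit 7) (nat_lit 1) = 0 := by decide +kernel
theorem kS_4 : rng kSf (nat_lit 6) (nat_lit 1) = 0 := by decide +kernel
theorem CO_2 : rng COf (nat_lit 26) (nat_lit 5) = 0 := by decide +kernel
theorem wQE_0 : rng wQEf (nat_lit 0) (nat_lit 8) = 0 := by decide +kernel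
theorem CJ_0 : rng CJf (nat_lit 0) (nat_lit 3) = 0 := by decide +kernel
theorem PP_0 : rng PPf (nat_lit 0) (nat_lit 10) = 0 := by decide +kernel
theorem ES_7 : rng ESf (nat_lit 63) (nat_lit 1) = 0 := by decide +kernel
theorem R3RO_0 : rngB R3ROf (nat_lit 81) (nat_lit 0) (nat_lit 2) = 0 := by decide +kernel
theorem R3C_1 : rng R3Cf (nat_lit 15) (nat_lit 1) = 0 := by decide +kernel
theorem kT0 : kT 0 = (one2 (nat_lit 248)) := by decide +kernel
theorem zE : eE (nat_lit 22) = zc 0 := by decide +kernel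
theorem e0 : eE 0 = (one2 (nat_lit 248)) := by decide +kernel
theorem wx2 : pt (brow (nat_lit 40)) w2y (nat_lit 5) = pt (brow (nat_lit 40)) w1y (nat_lit 6) := by decide +kernel
theorem wx3 : pt (brow (nat_lit 40)) w3y (nat_lit 4) = pt (brow (nat_lit 40)) w1y (nat_lit 5) := by decide +kernel
theorem wx4 : pt (brow (nat_lit 40)) w4y (nat_lit 0) = pt (brow (nat_lit 40)) w1y (nat_lit 0) := by decide +kernel
theorem wx5 : pt (brow (nat_lit 40)) w5y (nat_lit 2) = pt (brow (nat_lit 40)) w1y (nat_lit 3) := by decide +kernel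
theorem wx6 : pt (brow (nat_lit 40)) w6y (nat_lit 2) = pt (brow (nat_lit 40)) w1y (nat_lit 7) := by decide +kernel
theorem wx : pt (brow (nat_lit 40)) qL10y (nat_lit 0) = pt (brow (nat_lit 40)) w1y (nat_lit 4) := by decide +kernel
theorem BY1_0 : rng BY1f (nat_lit 0) (nat_lit 4) = 0 := by decide +kernel
theorem BY2_0 : rng BY2f (nat_lit 0) (nat_lit 4) = 0 := by decide +kernel
theorem BY3_0 : rng BY3f (nat_lit 0) (nat_lit 4) = 0 := by decide +kernel
theorem BY4_0 : rng BY4f (nat_lit 0) (nat_lit 4) = 0 := by decide +kernel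
theorem BY5_0 : rng BY5f (nat_lit 0) (nat_lit 4) = 0 := by decide +kernel
theorem BY6_0 : rng BY6f (nat_lit 0) (nat_lit 4) = 0 := by decide +kernel
theorem BY7_0 : rng BY7f (nat_lit 0) (nat_lit 4) = 0 := by decide +kernel
theorem BY8_0 : rng BY8f (nat_lit 0) (nat_lit 4) = 0 := by decide +kernel
theorem BY9_0 : rng BY9f (nat_lit 0) (nat_lit 4) = 0 := by decide +kernel
theorem BY10_0 : rng BY10f (nat_lit 0) (nat_lit 4) = 0 := by decide +kernel
theorem zq : chkQ (mul3 (nat_lit 248)) (one2 (nat_lit 248)) kA (zc 0) 2 = 0 := by decide +kernel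
theorem CE_0 : rng CEf (nat_lit 0) (nat_lit 3) = 0 := by decide +kernel
theorem R3ZY_0 : rngB R3ZYf (nat_lit 81) (nat_lit 0) (nat_lit 2) = 0 := by decide +kernel
theorem w1RO_0 : rngB w1ROf (nat_lit 8) (nat_lit 0) (nat_lit 1) = 0 := by decide +kernel
theorem w2RO_0 : rngB w2ROf (nat_lit 7) (nat_lit 0) (nat_lit 1) = 0 := by decide +kernel
theorem w3RO_0 : rngB w3ROf (nat_lit 6) (nat_lit 0) (nat_lit 1) = 0 := by decide +kernel
theorem w4RO_0 : rngB w4ROf (nat_lit 5) (nat_lit 0) (nat_lit 1) = 0 := by decide +kernel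
theorem w5RO_0 : rngB w5ROf (nat_lit 4) (nat_lit 0) (nat_lit 1) = 0 := by decide +kernel
theorem w6RO_0 : rngB w6ROf (nat_lit 3) (nat_lit 0) (nat_lit 1) = 0 := by decide +kernel
theorem w1yY_0 : rngB w1yYf (nat_lit 8) (nat_lit 0) (nat_lit 1) = 0 := by decide +kernel
theorem w2yY_0 : rngB w2yYf (nat_lit 7) (nat_lit 0) (nat_lit 1) = 0 := by decide +kernel
theorem w3yY_0 : rngB w3yYf (nat_lit 6) (nat_lit 0) (nat_lit 1) = 0 := by decide +kernel
theorem w4yY_0 : rngB w4yYf (nat_lit 5) (nat_lit 0) (nat_lit 1) = 0 := by decide +kernel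
theorem w5yY_0 : rngB w5yYf (nat_lit 4) (nat_lit 0) (nat_lit 1) = 0 := by decide +kernel
theorem w6yY_0 : rngB w6yYf (nat_lit 3) (nat_lit 0) (nat_lit 1) = 0 := by decide +kernel
theorem w6F_0 : rng w6Ff (nat_lit 0) (nat_lit 8) = 0 := by decide +kernel
theorem w5F_0 : rng w5Ff (nat_lit 0) (nat_lit 5) = 0 := by decide +kernel
theorem w4F_0 : rng w4Ff (nat_lit 0) (nat_lit 4) = 0 := by decide +kernel
theorem w3F_0 : rng w3Ff (nat_lit 0) (nat_lit 3) = 0 := by decide +kernel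
theorem w1F_0 : rng w1Ff (nat_lit 0) (nat_lit 2) = 0 := by decide +kernel
theorem w2F_0 : rng w2Ff (nat_lit 0) (nat_lit 2) = 0 := by decide +kernel
theorem zQE_0 : rng zQEf (nat_lit 0) (nat_lit 1) = 0 := by decide +kernel

end Cfsg.Agent.H4.Th
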