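import Cfsg.Agent.H4.T3C0

set_option autoImplicit false
set_option maxRecDepth 100000

namespace Cfsg.Agent.H4.Th

open Subgroup Cfsg.Agent.H5 Cfsg.Agent.H5.Mdl 

attribute [local irreducible] look Tr.get

theorem CE : ∀ i < 3, (fun s => Nat.xor (cons1 (qD 1) XAg s) (Cg s)) i = 0 :=
  (rng_step (all0 _) CE_0)
theorem CG : ∀ s < 3, mA.In qG (Cg s) :=
  fun s hs => (El.cons1 (qelG 1) (XA_eg.mono XG) s).of_eq (CE s hs)
theorem C_top : ∀ s < 3, mA.In ⊤ (Cg s) :=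
  fun s hs => (CG s hs).top
theorem C_in : ∀ s < 3, mA.In C (Cg s) :=
  in_gn C_top
theorem C_eg : mA.El C Cg :=
  el_gn C_top
theorem kS : ∀ i < 9, (chkS2 (mul3 (nat_lit 248)) Cg (nat_lit 3) kT (fun x => hi (nat_lit 1600) (ce1 x)) kc (nat_lit 4) (nat_lit 9)) i = 0 :=
  (rng_step (rng_step (rng_step (rng_step (rng_step (rng_step (rng_step (all0 _) kS_0) kS_1) kS_2) kS_3) kS_4) kS_5) kS_6)
theorem kub : Nat.card C ≤ 92897280 :=
  (ub_of_chkS2 (m := mA) (pf.el c1el) (by decide) kT0 kS cardX.le).trans (by norm_num)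
theorem kelT : mA.El C kT :=
  el_of_pad (inT_of_chkS2 (m := mA) kT0 (by decide) C_in kS)
theorem kle : XA ≤ C :=
  XA_eq.le.trans (gn_le fun s hs => (show Cg (s + 1) = XAg s from (xor_eq_zero' (CE (s + 1) (by omega))).symm) ▸ C_eg (s + 1))
theorem kel : mA.El C ke :=
  el_cel1 kelT ((pf.el c1el).mono kle) _
theorem QA_eq : QA = mA.gn QAg 8 :=
  pf.map_gn cK7_top
theorem QA_eg : mA.El QA QAg :=
  pf.el cK7_eg
theorem EA_eq : EA = mA.gn EAg 5 :=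
  pf.map_gn cK8_top
theorem EA_eg : mA.El EA EAg :=
  pf.el cK8_eg
theorem eQl : mA.El QN eQ :=
  (pf.el c7el).mono QA_eq.le
theorem eEl : mA.El EN eE :=
  (pf.el c8el).mono EA_eq.le
theorem c0lb : 319979520 ≤ Nat.card H :=
  cardH.ge
theorem c1lb : 10321920 ≤ Nat.card cK1 :=
  lb_step c0lb (rel_of_chkS2 (m := mP) c1el (by decide) c0T0 c0S) (by decide) (by norm_num)
theorem c2lb : 1290240 ≤ Nat.card cK2 :=
  lb_step c1lb (rel_of_chkS2 (m := mP) c2el (by decide) c1T0 c1S) (by decide) (by norm_num)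
theorem c3lb : 184320 ≤ Nat.card cK3 :=
  lb_step c2lb (rel_of_chkS2 (m := mP) c3el (by decide) c2T0 c2S) (by decide) (by norm_num)
theorem c4lb : 30720 ≤ Nat.card cK4 :=
  lb_step c3lb (rel_of_chkS2 (m := mP) c4el (by decide) c3T0 c3S) (by decide) (by norm_num)
theorem c5lb : 6144 ≤ Nat.card cK5 :=
  lb_step c4lb (rel_of_chkS2 (m := mP) c5el (by decide) c4T0 c4S) (by decide) (by norm_num)
theorem c6lb : 1536 ≤ Nat.card cK6 :=
  lb_step c5lb (rel_of_chkS2 (m := mP) c6el (by decide) c5T0 c5S) (by decide) (by norm_num)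
theorem c7lb : 512 ≤ Nat.card cK7 :=
  lb_step c6lb (rel_of_chkS2 (m := mP) c7el (by decide) c6T0 c6S) (by decide) (by norm_num)
theorem c8lb : 32 ≤ Nat.card cK8 :=
  lb_step c7lb (rel_of_chkS2 (m := mP) c8el (by decide) c7T0 c7S) (by decide) (by norm_num)
theorem c8cov : Cov mP cK8 ce8 32 :=
  cov_cel1 (W := 0) (el_one (m := mP) ⊥) (by decide) (by decide) c8T0 rfl c8S cov_bot
theorem c8e0 : ce8 0 = (join (nat_lit 1600) (one2 (nat_lit 40)) (one2 (nat_lit 248))) :=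
  cel1_zero.trans c8T0
theorem Q1 : cK7 ≤ cK1 :=
  c6le.trans (c5le.trans (c4le.trans (c3le.trans (c2le.trans c1le))))
theorem cardQ : Nat.card QN = 512 :=
  (congrArg (fun K : Subgroup GA => Nat.card K) QA_eq).symm.trans
    ((card_map_of_le fst Q1 (c1ub.trans xlb0)).trans (le_antisymm c7ub c7lb))
theorem cardE : 32 ≤ Nat.card EN :=
  c8lb.trans ((card_map_of_le fst (c7le.trans Q1) (c1ub.trans xlb0)).symm.trans
    (congrArg (fun K : Subgroup GA => Nat.card K) EA_eq)).le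
theorem nQJ : ∀ i < 24, (chkNm (mul3 (nat_lit 248)) Cg QAg eQ (nat_lit 8) nQa) i = 0 :=
  (rng_step (rng_step (rng_step (all0 _) nQJ_0) nQJ_1) nQJ_2)
theorem nQ : Nm C QN :=
  nm_of_chkNm (ng := 3) eQl nQJ
theorem nEJ : ∀ i < 10, (chkNm (mul3 (nat_lit 248)) HAg EAg eE (nat_lit 5) nEa) i = 0 :=
  (rng_step (all0 _) nEJ_0)
theorem nE : Nm (mA.gn HAg 2) EN :=
  nm_of_chkNm (ng := 2) eEl nEJ
theorem R3IE : ∀ i < 4, (chkE R3g ke [nat_lit 9914081, nat_lit 364447360, nat_lit 155844608, nat_lit 505618483]) i = 0 :=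
  (rng_step (all0 _) R3IE_0)
theorem R3I : ∀ s < 4, mA.In C (R3g s) :=
  in_of_chkE kel R3IE
theorem R3_top : ∀ s < 4, mA.In ⊤ (R3g s) :=
  fun s hs => (R3I s hs).top
theorem R3_in : ∀ s < 4, mA.In R3 (R3g s) :=
  in_gn R3_top
theorem R3_eg : mA.El R3 R3g :=
  el_gn R3_top
theorem R3C : ∀ i < 16, (chkPC (mul3 (nat_lit 248)) (one2 (nat_lit 248)) R3g R3w (nat_lit 4) (nat_lit 3)) i = 0 :=
  (rng_step (rng_step (all0 _) R3C_0) R3C_1)
theorem R3_p : IsPGroup 3 R3 :=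
  pgroup_of_chkPC (e := 1) R3_top R3C
theorem R3_le : R3 ≤ C :=
  gn_le R3I
theorem R3ZY : ∀ i < 81, (chkY (can3 (nat_lit 248)) (row3 (nat_lit 248)) R3Z (nat_lit 81)) i = 0 :=
  allB (rngB_step (allB0 _ _) R3ZY_0) (by decide)
theorem R3ZD : Dist (fun i => pvA (pt (row3 (nat_lit 248)) R3Z i)) 81 :=
  dist_of_chk (canT3 φA) R3ZY
theorem R3RO : ∀ i < 81, (chkO (img3 (nat_lit 248) R3g) (row3 (nat_lit 248)) R3Z R3Ra (nat_lit 81) [nat_lit 0]) i = 0 :=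
  allB (rngB_step (allB0 _ _) R3RO_0) (by decide)
theorem R3R : Reach R3 (fun i => pvA (pt (row3 (nat_lit 248)) R3Z i)) 81 [nat_lit 0] :=
  reach_of_chk ((acts3 (m := mA) φA hA R3g).ex R3_eg) R3RO
theorem R3d : 3 ^ (3 + 1) ∣ Nat.card C :=
  pow_dvd_of_pgroup (by norm_num) R3_p R3_le (card_ge R3ZD R3R (one_le_card _)) (by norm_num)
theorem zQE : ∀ i < 1, (chkE zc eQ [nat_lit 352]) i = 0 :=
  (rng_step (all0 _) zQE_0)
theorem zQ : ∀ s < 1, mA.In QN (zc s) :=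
  in_of_chkE eQl zQE
theorem CJ : ∀ i < 3, (fun s => chkJ (mul3 (nat_lit 248)) (Cg s) (zc 0) (zc 0)) i = 0 :=
  (rng_step (all0 _) CJ_0)
theorem wQE : ∀ i < 8, (chkE wq eQ [nat_lit 457, nat_lit 210, nat_lit 224, nat_lit 151, nat_lit 29, nat_lit 167, nat_lit 180, nat_lit 220]) i = 0 :=
  (rng_step (all0 _) wQE_0)
theorem wQ : ∀ s < 8, mA.In QN (wq s) :=
  in_of_chkE eQl wQE
theorem ES : ∀ i < 64, (chkES (mul3 (nat_lit 248)) (one2 (nat_lit 248)) QAg wq kA (zc 0) (nat_lit 8)) i = 0 :=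
  (rng_step (rng_step (rng_step (rng_step (rng_step (rng_step (rng_step (rng_step (all0 _) ES_0) ES_1) ES_2) ES_3) ES_4) ES_5) ES_6) ES_7)
theorem CO : ∀ i < 31, (chkCO (mul3 (nat_lit 248)) HAg eE Nat.succ tza (nat_lit 31) (nat_lit 32) (nat_lit 21)) i = 0 :=
  (rng_step (rng_step (rng_step (all0 _) CO_0) CO_1) CO_2)
theorem PP : ∀ i < 10, (chkPair (img3 (nat_lit 248) EAg) (row3 (nat_lit 248)) Yr (nat_lit 2)) i = 0 :=
  (rng_step (all0 _) PP_0)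
theorem pp : PairP EN pvA (row3 (nat_lit 248)) Yr 2 :=
  pairP_of_chk (ng := 5) (acts3 (m := mA) φA hA EAg) (by decide) PP
theorem covE : Cov mA EN eE 32 :=
  fun g hg => c8cov.map pf g (EA_eq.ge hg)
theorem FI : ∀ i < 32, (fun x => (Nat.add (chkFi (img3 (nat_lit 248) eE) (row3 (nat_lit 248)) kV Br (nat_lit 0) (nat_lit 2) [nat_lit 0, nat_lit 22] x) (Nat.add (chkFi (img3 (nat_lit 248) eE) (row3 (nat_lit 248)) kV Br (nat_lit 4) (nat_lit 2) [nat_lit 0] x) (Nat.add (chkFi (img3 (nat_lit 248) eE) (row3 (nat_lit 248)) kV Br (nat_lit 8) (nat_lit 2) [nat_lit 0] x) (Nat.add (chkFi (img3 (nat_lit 248) eE) (row3 (nat_lit 248)) kV Br (nat_lit 12) (nat_lit 2) [nat_lit 0] x) (Nat.add (chkFi (img3 (nat_lit 248) eE) (row3 (nat_lit 248)) kV Br (nat_lit 16) (nat_lit 2) [nat_lit 0] x) (Nat.add (chkFi (img3 (nat_lit 248) eE) (row3 (nat_lit 248)) kV Br (nat_lit 20) (nat_lit 2) [nat_lit 0]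 x) (Nat.add (chkFi (img3 (nat_lit 248) eE) (row3 (nat_lit 248)) kV Br (nat_lit 24) (nat_lit 2) [nat_lit 0] x) (Nat.add (chkFi (img3 (nat_lit 248) eE) (row3 (nat_lit 248)) kV Br (nat_lit 28) (nat_lit 2) [nat_lit 0] x) (Nat.add (chkFi (img3 (nat_lit 248) eE) (row3 (nat_lit 248)) kV Br (nat_lit 32) (nat_lit 2) [nat_lit 0] x) (chkFi (img3 (nat_lit 248) eE) (row3 (nat_lit 248)) kV Br (nat_lit 36) (nat_lit 2) [nat_lit 0] x))))))))))) i = 0 :=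
  (rng_step (all0 _) FI_0)
theorem BY1 : ∀ i < 4, (chkBY (img3 (nat_lit 248) qD) (row3 (nat_lit 248)) Br Yr (nat_lit 1) (nat_lit 0)) i = 0 :=
  (rng_step (all0 _) BY1_0)
theorem F1 : ∀ u ∈ Lc EN (mA.elt (qD 1)), ∃ x ∈ [nat_lit 0, nat_lit 22], mA.φ u = mA.ev (eE x) :=
  lc_of_chkFi (vkey3 φA) covE pp (acts3 (m := mA) φA hA eE) (acts3 (m := mA) φA hA qD) (qelD 1) (by decide) BY1 fun x hx => (add_eq_zero' (FI x hx)).1
theorem BY2 : ∀ i < 4, (chkBY (img3 (nat_lit 248) qD) (row3 (nat_lit 248)) Br Yr (nat_lit 2) (nat_lit 4)) i = 0 :=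
  (rng_step (all0 _) BY2_0)
theorem F2 : ∀ u ∈ Lc EN (mA.elt (qD 2)), ∃ x ∈ [nat_lit 0], mA.φ u = mA.ev (eE x) :=
  lc_of_chkFi (vkey3 φA) covE pp (acts3 (m := mA) φA hA eE) (acts3 (m := mA) φA hA qD) (qelD 2) (by decide) BY2 fun x hx => (add_eq_zero' (add_eq_zero' (FI x hx)).2).1
theorem BY3 : ∀ i < 4, (chkBY (img3 (nat_lit 248) qD) (row3 (nat_lit 248)) Br Yr (nat_lit 3) (nat_lit 8)) i = 0 :=
  (rng_step (all0 _) BY3_0)
theorem F3 : ∀ u ∈ Lc EN (mA.elt (qD 3)), ∃ x ∈ [nat_lit 0], mA.φ u = mA.ev (eE x) :=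
  lc_of_chkFi (vkey3 φA) covE pp (acts3 (m := mA) φA hA eE) (acts3 (m := mA) φA hA qD) (qelD 3) (by decide) BY3 fun x hx => (add_eq_zero' (add_eq_zero' (add_eq_zero' (FI x hx)).2).2).1
theorem BY4 : ∀ i < 4, (chkBY (img3 (nat_lit 248) qD) (row3 (nat_lit 248)) Br Yr (nat_lit 4) (nat_lit 12)) i = 0 :=
  (rng_step (all0 _) BY4_0)
theorem F4 : ∀ u ∈ Lc EN (mA.elt (qD 4)), ∃ x ∈ [nat_lit 0], mA.φ u = mA.ev (eE x) :=
  lc_of_chkFi (vkey3 φA) covE pp (acts3 (m := mA) φA hA eE) (acts3 (m := mA) φA hA qD) (qelD 4) (by decide) BY4 fun x hx => (add_eq_zero' (add_eq_zero' (add_eq_zero' (add_eq_zero' (FI x hx)).2).2).2).1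
theorem BY5 : ∀ i < 4, (chkBY (img3 (nat_lit 248) qD) (row3 (nat_lit 248)) Br Yr (nat_lit 5) (nat_lit 16)) i = 0 :=
  (rng_step (all0 _) BY5_0)
theorem F5 : ∀ u ∈ Lc EN (mA.elt (qD 5)), ∃ x ∈ [nat_lit 0], mA.φ u = mA.ev (eE x) :=
  lc_of_chkFi (vkey3 φA) covE pp (acts3 (m := mA) φA hA eE) (acts3 (m := mA) φA hA qD) (qelD 5) (by decide) BY5 fun x hx => (add_eq_zero' (add_eq_zero' (add_eq_zero' (add_eq_zero' (add_eq_zero' (FI x hx)).2).2).2).2).1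
theorem BY6 : ∀ i < 4, (chkBY (img3 (nat_lit 248) qD) (row3 (nat_lit 248)) Br Yr (nat_lit 6) (nat_lit 20)) i = 0 :=
  (rng_step (all0 _) BY6_0)
theorem F6 : ∀ u ∈ Lc EN (mA.elt (qD 6)), ∃ x ∈ [nat_lit 0], mA.φ u = mA.ev (eE x) :=
  lc_of_chkFi (vkey3 φA) covE pp (acts3 (m := mA) φA hA eE) (acts3 (m := mA) φA hA qD) (qelD 6) (by decide) BY6 fun x hx => (add_eq_zero' (add_eq_zero' (add_eq_zero' (add_eq_zero' (add_eq_zero' (add_eq_zero' (FI x hx)).2).2).2).2).2).1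
theorem BY7 : ∀ i < 4, (chkBY (img3 (nat_lit 248) qD) (row3 (nat_lit 248)) Br Yr (nat_lit 7) (nat_lit 24)) i = 0 :=
  (rng_step (all0 _) BY7_0)
theorem F7 : ∀ u ∈ Lc EN (mA.elt (qD 7)), ∃ x ∈ [nat_lit 0], mA.φ u = mA.ev (eE x) :=
  lc_of_chkFi (vkey3 φA) covE pp (acts3 (m := mA) φA hA eE) (acts3 (m := mA) φA hA qD) (qelD 7) (by decide) BY7 fun x hx => (add_eq_zero' (add_eq_zero' (add_eq_zero' (add_eq_zero' (add_eq_zero' (add_eq_zero' (add_eq_zero' (FI x hx)).2).2).2).2).2).2).1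
theorem BY8 : ∀ i < 4, (chkBY (img3 (nat_lit 248) qD) (row3 (nat_lit 248)) Br Yr (nat_lit 8) (nat_lit 28)) i = 0 :=
  (rng_step (all0 _) BY8_0)
theorem F8 : ∀ u ∈ Lc EN (mA.elt (qD 8)), ∃ x ∈ [nat_lit 0], mA.φ u = mA.ev (eE x) :=
  lc_of_chkFi (vkey3 φA) covE pp (acts3 (m := mA) φA hA eE) (acts3 (m := mA) φA hA qD) (qelD 8) (by decide) BY8 fun x hx => (add_eq_zero' (add_eq_zero' (add_eq_zero' (add_eq_zero' (add_eq_zero' (add_eq_zero' (add_eq_zero' (add_eq_zero' (FI x hx)).2).2).2).2).2).2).2).1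
theorem BY9 : ∀ i < 4, (chkBY (img3 (nat_lit 248) qD) (row3 (nat_lit 248)) Br Yr (nat_lit 9) (nat_lit 32)) i = 0 :=
  (rng_step (all0 _) BY9_0)
theorem F9 : ∀ u ∈ Lc EN (mA.elt (qD 9)), ∃ x ∈ [nat_lit 0], mA.φ u = mA.ev (eE x) :=
  lc_of_chkFi (vkey3 φA) covE pp (acts3 (m := mA) φA hA eE) (acts3 (m := mA) φA hA qD) (qelD 9) (by decide) BY9 fun x hx => (add_eq_zero' (add_eq_zero' (add_eq_zero' (add_eq_zero' (add_eq_zero' (add_eq_zero' (add_eq_zero' (add_eq_zero' (add_eq_zero' (FI x hx)).2).2).2).2).2).2).2).2).1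
theorem BY10 : ∀ i < 4, (chkBY (img3 (nat_lit 248) qD) (row3 (nat_lit 248)) Br Yr (nat_lit 10) (nat_lit 36)) i = 0 :=
  (rng_step (all0 _) BY10_0)
theorem F10 : ∀ u ∈ Lc EN (mA.elt (qD 10)), ∃ x ∈ [nat_lit 0], mA.φ u = mA.ev (eE x) :=
  lc_of_chkFi (vkey3 φA) covE pp (acts3 (m := mA) φA hA eE) (acts3 (m := mA) φA hA qD) (qelD 10) (by decide) BY10 fun x hx => (add_eq_zero' (add_eq_zero' (add_eq_zero' (add_eq_zero' (add_eq_zero' (add_eq_zero' (add_eq_zero' (add_eq_zero' (add_eq_zero' (FI x hx)).2).2).2).2).2).2).2).2).2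
theorem w1yY : ∀ i < 8, (chkY can0 (brow (nat_lit 40)) w1y (nat_lit 8)) i = 0 :=
  allB (rngB_step (allB0 _ _) w1yY_0) (by decide)
theorem w1yD : Dist (fun i => pvB (pt (brow (nat_lit 40)) w1y i)) 8 :=
  dist_of_chk (canT2 ψB) w1yY
theorem w1RO : ∀ i < 8, (chkO (img2 (nat_lit 40) fun s => lo (nat_lit 1600) (cK1g s)) (brow (nat_lit 40)) w1y w1Ra (nat_lit 8) [nat_lit 4]) i = 0 :=
  allB (rngB_step (allB0 _ _) w1RO_0) (by decide)
theorem w1R : Reach cK1 (fun i => pvB (pt (brow (nat_lit 40)) w1y i)) 8 [nat_lit 4] :=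
  reach_of_chk ((acts2 (m := mP) ψB hPB cK1g).ex cK1_eg) w1RO
theorem w1F : ∀ i < 2, (chkF (img2 (nat_lit 40) fun s => lo (nat_lit 1600) (cK2g s)) (brow (nat_lit 40)) w1y (nat_lit 4) [nat_lit 0, nat_lit 0]) i = 0 :=
  (rng_step (all0 _) w1F_0)
theorem w1st : cK2 ≤ MulAction.stabilizer (GA × GB) (pvB (pt (brow (nat_lit 40)) w1y (nat_lit 4))) :=
  gn_le_stab (acts2 (m := mP) ψB hPB cK2g) w1F
theorem w1 : MulAction.orbit cK1 (pvB (pt (brow (nat_lit 40)) w1y (nat_lit 4))) = (fun i => pvB (pt (brow (nat_lit 40)) w1y i)) '' {i | i < 8} ∧ cK1 ⊓ MulAction.stabilizer (GA × GB) (pvB (pt (brow (nat_lit 40)) w1y (nat_lit 4))) = cK2 ∧ Nat.card cK1 = 8 * 1290240 ∧ Nat.card cK2 = 1290240 :=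
  exact (Y := (fun i => pvB (pt (brow (nat_lit 40)) w1y i))) (r := (nat_lit 4)) w1yD w1R c1le w1st c2lb (c1ub.trans (by norm_num))
theorem w2yY : ∀ i < 7, (chkY can0 (brow (nat_lit 40)) w2y (nat_lit 7)) i = 0 :=
  allB (rngB_step (allB0 _ _) w2yY_0) (by decide)
theorem w2yD : Dist (fun i => pvB (pt (brow (nat_lit 40)) w2y i)) 7 :=
  dist_of_chk (canT2 ψB) w2yY
theorem w2RO : ∀ i < 7, (chkO (img2 (nat_lit 40) fun s => lo (nat_lit 1600) (cK2g s)) (brow (nat_lit 40)) w2y w2Ra (nat_lit 7) [nat_lit 5]) i = 0 :=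
  allB (rngB_step (allB0 _ _) w2RO_0) (by decide)
theorem w2R : Reach cK2 (fun i => pvB (pt (brow (nat_lit 40)) w2y i)) 7 [nat_lit 5] :=
  reach_of_chk ((acts2 (m := mP) ψB hPB cK2g).ex cK2_eg) w2RO
theorem w2F : ∀ i < 2, (chkF (img2 (nat_lit 40) fun s => lo (nat_lit 1600) (cK3g s)) (brow (nat_lit 40)) w2y (nat_lit 5) [nat_lit 0, nat_lit 0]) i = 0 :=
  (rng_step (all0 _) w2F_0)
theorem w2st : cK3 ≤ MulAction.stabilizer (GA × GB) (pvB (pt (brow (nat_lit 40)) w2y (nat_lit 5))) :=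
  gn_le_stab (acts2 (m := mP) ψB hPB cK3g) w2F
theorem w2 : MulAction.orbit cK2 (pvB (pt (brow (nat_lit 40)) w2y (nat_lit 5))) = (fun i => pvB (pt (brow (nat_lit 40)) w2y i)) '' {i | i < 7} ∧ cK2 ⊓ MulAction.stabilizer (GA × GB) (pvB (pt (brow (nat_lit 40)) w2y (nat_lit 5))) = cK3 ∧ Nat.card cK2 = 7 * 184320 ∧ Nat.card cK3 = 184320 :=
  exact (Y := (fun i => pvB (pt (brow (nat_lit 40)) w2y i))) (r := (nat_lit 5)) w2yD w2R c2le w2st c3lb (c2ub.trans (by norm_num))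
theorem w3yY : ∀ i < 6, (chkY can0 (brow (nat_lit 40)) w3y (nat_lit 6)) i = 0 :=
  allB (rngB_step (allB0 _ _) w3yY_0) (by decide)
theorem w3yD : Dist (fun i => pvB (pt (brow (nat_lit 40)) w3y i)) 6 :=
  dist_of_chk (canT2 ψB) w3yY
theorem w3RO : ∀ i < 6, (chkO (img2 (nat_lit 40) fun s => lo (nat_lit 1600) (cK3g s)) (brow (nat_lit 40)) w3y w3Ra (nat_lit 6) [nat_lit 4]) i = 0 :=
  allB (rngB_step (allB0 _ _) w3RO_0) (by decide)
theorem w3R : Reach cK3 (fun i => pvB (pt (brow (nat_lit 40)) w3y i)) 6 [nat_lit 4] :=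
  reach_of_chk ((acts2 (m := mP) ψB hPB cK3g).ex cK3_eg) w3RO
theorem w3F : ∀ i < 3, (chkF (img2 (nat_lit 40) fun s => lo (nat_lit 1600) (cK4g s)) (brow (nat_lit 40)) w3y (nat_lit 4) [nat_lit 0, nat_lit 0, nat_lit 0]) i = 0 :=
  (rng_step (all0 _) w3F_0)
theorem w3st : cK4 ≤ MulAction.stabilizer (GA × GB) (pvB (pt (brow (nat_lit 40)) w3y (nat_lit 4))) :=
  gn_le_stab (acts2 (m := mP) ψB hPB cK4g) w3F
theorem w3 : MulAction.orbit cK3 (pvB (pt (brow (nat_lit 40)) w3y (nat_lit 4))) = (fun i => pvB (pt (brow (nat_lit 40)) w3y i)) '' {i | i < 6} ∧ cK3 ⊓ MulAction.stabilizer (GA × GB) (pvB (pt (brow (nat_lit 40)) w3y (nat_lit 4))) = cK4 ∧ Nat.card cK3 = 6 * 30720 ∧ Nat.card cK4 = 30720 :=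
  exact (Y := (fun i => pvB (pt (brow (nat_lit 40)) w3y i))) (r := (nat_lit 4)) w3yD w3R c3le w3st c4lb (c3ub.trans (by norm_num))
theorem w4yY : ∀ i < 5, (chkY can0 (brow (nat_lit 40)) w4y (nat_lit 5)) i = 0 :=
  allB (rngB_step (allB0 _ _) w4yY_0) (by decide)
theorem w4yD : Dist (fun i => pvB (pt (brow (nat_lit 40)) w4y i)) 5 :=
  dist_of_chk (canT2 ψB) w4yY
theorem w4RO : ∀ i < 5, (chkO (img2 (nat_lit 40) fun s => lo (nat_lit 1600) (cK4g s)) (brow (nat_lit 40)) w4y w4Ra (nat_lit 5) [nat_lit 0]) i = 0 :=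
  allB (rngB_step (allB0 _ _) w4RO_0) (by decide)
theorem w4R : Reach cK4 (fun i => pvB (pt (brow (nat_lit 40)) w4y i)) 5 [nat_lit 0] :=
  reach_of_chk ((acts2 (m := mP) ψB hPB cK4g).ex cK4_eg) w4RO
theorem w4F : ∀ i < 4, (chkF (img2 (nat_lit 40) fun s => lo (nat_lit 1600) (cK5g s)) (brow (nat_lit 40)) w4y (nat_lit 0) [nat_lit 0, nat_lit 0, nat_lit 0, nat_lit 0]) i = 0 :=
  (rng_step (all0 _) w4F_0)
theorem w4st : cK5 ≤ MulAction.stabilizer (GA × GB) (pvB (pt (brow (nat_lit 40)) w4y (nat_lit 0))) :=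
  gn_le_stab (acts2 (m := mP) ψB hPB cK5g) w4F
theorem w4 : MulAction.orbit cK4 (pvB (pt (brow (nat_lit 40)) w4y (nat_lit 0))) = (fun i => pvB (pt (brow (nat_lit 40)) w4y i)) '' {i | i < 5} ∧ cK4 ⊓ MulAction.stabilizer (GA × GB) (pvB (pt (brow (nat_lit 40)) w4y (nat_lit 0))) = cK5 ∧ Nat.card cK4 = 5 * 6144 ∧ Nat.card cK5 = 6144 :=
  exact (Y := (fun i => pvB (pt (brow (nat_lit 40)) w4y i))) (r := (nat_lit 0)) w4yD w4R c4le w4st c5lb (c4ub.trans (by norm_num))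
theorem w5yY : ∀ i < 4, (chkY can0 (brow (nat_lit 40)) w5y (nat_lit 4)) i = 0 :=
  allB (rngB_step (allB0 _ _) w5yY_0) (by decide)
theorem w5yD : Dist (fun i => pvB (pt (brow (nat_lit 40)) w5y i)) 4 :=
  dist_of_chk (canT2 ψB) w5yY
theorem w5RO : ∀ i < 4, (chkO (img2 (nat_lit 40) fun s => lo (nat_lit 1600) (cK5g s)) (brow (nat_lit 40)) w5y w5Ra (nat_lit 4) [nat_lit 2]) i = 0 :=
  allB (rngB_step (allB0 _ _) w5RO_0) (by decide)
theorem w5R : Reach cK5 (fun i => pvB (pt (brow (nat_lit 40)) w5y i)) 4 [nat_lit 2] :=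
  reach_of_chk ((acts2 (m := mP) ψB hPB cK5g).ex cK5_eg) w5RO
theorem w5F : ∀ i < 5, (chkF (img2 (nat_lit 40) fun s => lo (nat_lit 1600) (cK6g s)) (brow (nat_lit 40)) w5y (nat_lit 2) [nat_lit 0, nat_lit 0, nat_lit 0, nat_lit 0, nat_lit 0]) i = 0 :=
  (rng_step (all0 _) w5F_0)
theorem w5st : cK6 ≤ MulAction.stabilizer (GA × GB) (pvB (pt (brow (nat_lit 40)) w5y (nat_lit 2))) :=
  gn_le_stab (acts2 (m := mP) ψB hPB cK6g) w5F
theorem w5 : MulAction.orbit cK5 (pvB (pt (brow (nat_lit 40)) w5y (nat_lit 2))) = (fun i => pvB (pt (brow (nat_lit 40)) w5y i)) '' {i | i < 4} ∧ cK5 ⊓ MulAction.stabilizer (GA × GB) (pvB (pt (brow (nat_lit 40)) w5y (nat_lit 2))) = cK6 ∧ Nat.card cK5 = 4 * 1536 ∧ Nat.card cK6 = 1536 :=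
  exact (Y := (fun i => pvB (pt (brow (nat_lit 40)) w5y i))) (r := (nat_lit 2)) w5yD w5R c5le w5st c6lb (c5ub.trans (by norm_num))
theorem w6yY : ∀ i < 3, (chkY can0 (brow (nat_lit 40)) w6y (nat_lit 3)) i = 0 :=
  allB (rngB_step (allB0 _ _) w6yY_0) (by decide)
theorem w6yD : Dist (fun i => pvB (pt (brow (nat_lit 40)) w6y i)) 3 :=
  dist_of_chk (canT2 ψB) w6yY
theorem w6RO : ∀ i < 3, (chkO (img2 (nat_lit 40) fun s => lo (nat_lit 1600) (cK6g s)) (brow (nat_lit 40)) w6y w6Ra (nat_lit 3) [nat_lit 2]) i = 0 :=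
  allB (rngB_step (allB0 _ _) w6RO_0) (by decide)
theorem w6R : Reach cK6 (fun i => pvB (pt (brow (nat_lit 40)) w6y i)) 3 [nat_lit 2] :=
  reach_of_chk ((acts2 (m := mP) ψB hPB cK6g).ex cK6_eg) w6RO
theorem w6F : ∀ i < 8, (chkF (img2 (nat_lit 40) fun s => lo (nat_lit 1600) (cK7g s)) (brow (nat_lit 40)) w6y (nat_lit 2) [nat_lit 0, nat_lit 0, nat_lit 0, nat_lit 0, nat_lit 0, nat_lit 0, nat_lit 0, nat_lit 0]) i = 0 :=
  (rng_step (all0 _) w6F_0)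
theorem w6st : cK7 ≤ MulAction.stabilizer (GA × GB) (pvB (pt (brow (nat_lit 40)) w6y (nat_lit 2))) :=
  gn_le_stab (acts2 (m := mP) ψB hPB cK7g) w6F
theorem w6 : MulAction.orbit cK6 (pvB (pt (brow (nat_lit 40)) w6y (nat_lit 2))) = (fun i => pvB (pt (brow (nat_lit 40)) w6y i)) '' {i | i < 3} ∧ cK6 ⊓ MulAction.stabilizer (GA × GB) (pvB (pt (brow (nat_lit 40)) w6y (nat_lit 2))) = cK7 ∧ Nat.card cK6 = 3 * 512 ∧ Nat.card cK7 = 512 :=
  exact (Y := (fun i => pvB (pt (brow (nat_lit 40)) w6y i))) (r := (nat_lit 2)) w6yD w6R c6le w6st c7lb (c6ub.trans (by norm_num))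
theorem wcore : ∀ N : Subgroup (GA × GB), Nm cK1 N → N ≤ cK2 → N ≤ cK7 :=
  fun N hN h =>
  have hf := fix_of_reach hN w1R (h.trans w1st)
  ((le_stab_of_fix (j := 7) hf ((le_stab_of_fix (j := 3) hf ((le_stab_of_fix (j := 0) hf ((le_stab_of_fix (j := 5) hf ((le_stab_of_fix (j := 6) hf h (by decide) (congrArg pvB wx2)).trans w2.2.1.le) (by decide) (congrArg pvB wx3)).trans w3.2.1.le) (by decide) (congrArg pvB wx4)).trans w4.2.1.le) (by decide) (congrArg pvB wx5)).trans w5.2.1.le) (by decide) (congrArg pvB wx6)).trans w6.2.1.le)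

noncomputable abbrev zz : GA := mA.elt (zc 0)

theorem zT : mA.In ⊤ (zc 0) := (zQ 0 (by decide)).top

theorem Cc : C ≤ centralizer {zz} := gn_le_cent zT.elt CJ

theorem tC : mA.elt (qD 1) ∈ C :=
  ((show Cg 0 = qD 1 from (xor_eq_zero' (CE 0 (by decide))).symm) ▸ C_eg 0 : mA.In C (qD 1)).elt_mem

theorem cH1 : HA ⊓ centralizer {zz} = XA :=
  cent_eq_of_chkCO HA_eg covE eEl cardE CO (zT.elt.trans (congrArg mA.ev zE.symm)) (map_mono c0le)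
    (kle.trans Cc) xlb0 (cardHA.trans (by norm_num))

theorem cG : qG ⊓ centralizer {zz} = C :=
  le_antisymm (cent_le_of_dc (E := EN) (zE ▸ eEl _ : mA.In EN (zc 0)).elt_mem (ne_one_of_chkQ keyA zT zq)
    (nE.mono HA_eq.le) (d := fun i => mA.elt (qD i)) qcov qd0 Cc (cH1.le.trans kle)
    (all_succ (all_succ (all_succ (all_succ (all_succ (all_succ (all_succ (all_succ (all_succ (all_succ (all_succ all_nil (fun h => absurd rfl h)) (fun _ => fi_self e0 zT tC zE F1)) (fun _ => fi_one e0 F2)) (fun _ => fi_one e0 F3)) (fun _ => fi_one e0 F4)) (fun _ => fi_one e0 F5)) (fun _ => fi_one e0 F6)) (fun _ => fi_one e0 F7)) (fun _ => fi_one e0 F8)) (fun _ => fi_one e0 F9)) (fun _ => fi_one e0 F10))) (le_inf (gn_le CG) Cc)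

theorem QX : QN ≤ XA := QA_eq.ge.trans (map_mono Q1)

theorem esQ : H2.ES 2 (⟨zz, (zQ 0 (by decide)).elt_mem⟩ : QN) :=
  es_of_chkES keyA (fun s _ => (QA_eg s).top) wQ (zQ 0 (by decide)) (ne_one_of_chkQ keyA zT zq)
    (pow_of_chkQ zT zq) (QX.trans (kle.trans Cc)) ES cardQ.le

theorem arithC {n : ℕ} (h0 : 0 < n) (h1 : 10321920 ∣ n) (h2 : 3 ^ (3 + 1) ∣ n) (h : n ≤ 92897280) :
    n = 9 * 10321920 := by
  have a1 : 1146880 ∣ n := dvd_trans (by norm_num) h1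
  have a2 : 92897280 ∣ n := by
    simpa using Nat.Coprime.mul_dvd_of_dvd_of_dvd (by norm_num) a1 h2
  exact eq_of_dvd_of_le h0 a2 h

theorem coreC : ∀ N : Subgroup GA, Nm C N → N ≤ XA → N ≤ QN := fun N hN h =>
  (core_map tC c0le kle ((inf_le_inf le_rfl ((le_of_card_inf (Lub 1 (by decide)) qL1lb1).trans
    (congrArg (fun x => MulAction.stabilizer (GA × GB) (pvB x)) wx).le)).trans w1.2.1.le) wcore N hN h).trans
    QA_eq.le

theorem main : ∃ (G : Type) (_ : Group G) (_ : Finite G), (IsSimpleGroup G ∧ Nat.card G = 90745943887872000) ∧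
      ∃ z : G, orderOf z = 2 ∧ ∃ (Q : Subgroup (centralizer ({z} : Set G))) (_ : Q.Normal),
        Nat.card Q = 2 ^ 9 ∧ Cfsg.IsExtraspecial 2 Q ∧
        Nonempty (centralizer ({z} : Set G) ⧸ Q ≃* alternatingGroup (Fin 9)) :=
  th_cent _ ⟨simpleG, cardG⟩ cG QX kle nQ esQ cardQ (by rw [cardX, cardQ])
    (by rw [cardX]; exact arithC Nat.card_pos (cardX ▸ card_dvd_of_le kle) R3d kub) coreC

end Cfsg.Agent.H4.Th
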