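/-
The ternary Golay code.
-/
import Cfsg.Agent.H4.Code

set_option autoImplicit false
set_option maxRecDepth 100000

open scoped Pointwise

namespace Cfsg.Agent.H4

/-- The encoding of the twelve positions. -/
def aE : Enc ArrayPt 12 4 where
  ix p := 3 * p.1.val + p.2.val
  pt i := (Fin.ofNat 4 (i / 3), (i : ZMod 3))
  ix_lt := by decide
  pt_ix := by decide
  ix_pt := by decide
  le_pow := by decide

/-- The field with three elements. -/
def K3 : FC (ZMod 3) 3 2 (primeOps 3) := primeFC (ZMod 3) 3 2 (by norm_num) (by norm_num)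

theorem K3_surj : ∀ x, ∃ a, a < 3 ∧ K3.val a = x := K3.surj (ZMod.card 3)

/-- A systematic generator matrix. -/
def tB : ℕ := 0xa950009249001988405844108a8404950401
/-- The information positions. -/
def tI : ℕ := 0x60403020100

theorem tOK : Ops.sysOK 3 2 12 6 tB tI = true := by decide +kernel

theorem mem_tetracode {t : Fin 4 → ZMod 3} :
    t ∈ tetracode ↔ ∃ a b : ZMod 3, a • ![0, 1, 1, 1] + b • ![1, 0, 1, 2] = t :=
  Submodule.mem_span_pair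

theorem sum3 (f : ZMod 3 → ZMod 3) : ∑ r, f r = f 0 + f 1 + f 2 := Fin.sum_univ_three f

theorem ternary_eq : ternaryGolayCode = K3.code aE 6 tB := by
  refine K3.eq_code aE tOK _ ?_ ?_
  · have h : ∀ j : Fin 6, ∃ s : ZMod 3, (∀ i : Fin 4, ∑ r : ZMod 3, K3.row aE tB j (i, r) = -s) ∧
        ∀ a b : ZMod 3, ∑ i : Fin 4, K3.row aE tB j
          (i, (a • ![0, 1, 1, 1] + b • ![1, 0, 1, 2] : Fin 4 → ZMod 3) i) = s := by decide +kernel
    intro j
    obtain ⟨s, h1, h2⟩ := h j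
    exact ⟨s, h1, fun t ht => by obtain ⟨a, b, rfl⟩ := mem_tetracode.mp ht; exact h2 a b⟩
  rintro x ⟨s, hc, ht⟩ hi
  have key : ∀ a b : ZMod 3, a • ![0, 1, 1, 1] + b • ![1, 0, 1, 2] ∈ tetracode :=
    fun a b => mem_tetracode.mpr ⟨a, b, rfl⟩
  have h3 : (3 : ZMod 3) = 0 := rfl
  have t0 : x (0, 0) + x (1, 0) + x (2, 0) + x (3, 0) = s := by
    have := ht (0 • ![0, 1, 1, 1] + 0 • ![1, 0, 1, 2]) (key _ _)
    rw [Fin.sum_univ_four] at this
    exact this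
  have t1 : x (0, 1) + x (1, 0) + x (2, 1) + x (3, 2) = s := by
    have := ht (0 • ![0, 1, 1, 1] + 1 • ![1, 0, 1, 2]) (key _ _)
    rw [Fin.sum_univ_four] at this
    exact this
  have t2 : x (0, 2) + x (1, 0) + x (2, 2) + x (3, 1) = s := by
    have := ht (0 • ![0, 1, 1, 1] + 2 • ![1, 0, 1, 2]) (key _ _)
    rw [Fin.sum_univ_four] at this
    exact this
  have t3 : x (0, 0) + x (1, 1) + x (2, 1) + x (3, 1) = s := by
    have := ht (1 • ![0, 1, 1, 1] + 0 • ![1, 0, 1, 2]) (key _ _)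
    rw [Fin.sum_univ_four] at this
    exact this
  have t4 : x (0, 1) + x (1, 1) + x (2, 2) + x (3, 0) = s := by
    have := ht (1 • ![0, 1, 1, 1] + 1 • ![1, 0, 1, 2]) (key _ _)
    rw [Fin.sum_univ_four] at this
    exact this
  have t5 : x (0, 2) + x (1, 1) + x (2, 0) + x (3, 2) = s := by
    have := ht (1 • ![0, 1, 1, 1] + 2 • ![1, 0, 1, 2]) (key _ _)
    rw [Fin.sum_univ_four] at this
    exact this
  have t6 : x (0, 0) + x (1, 2) + x (2, 2) + x (3, 2) = s := by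
    have := ht (2 • ![0, 1, 1, 1] + 0 • ![1, 0, 1, 2]) (key _ _)
    rw [Fin.sum_univ_four] at this
    exact this
  have t7 : x (0, 1) + x (1, 2) + x (2, 0) + x (3, 1) = s := by
    have := ht (2 • ![0, 1, 1, 1] + 1 • ![1, 0, 1, 2]) (key _ _)
    rw [Fin.sum_univ_four] at this
    exact this
  have t8 : x (0, 2) + x (1, 2) + x (2, 1) + x (3, 0) = s := by
    have := ht (2 • ![0, 1, 1, 1] + 2 • ![1, 0, 1, 2]) (key _ _)
    rw [Fin.sum_univ_four] at this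
    exact this
  have c0 : x (0, 0) + x (0, 1) + x (0, 2) = -s := (sum3 _).symm.trans (hc 0)
  have c1 : x (1, 0) + x (1, 1) + x (1, 2) = -s := (sum3 _).symm.trans (hc 1)
  have c2 : x (2, 0) + x (2, 1) + x (2, 2) = -s := (sum3 _).symm.trans (hc 2)
  have c3 : x (3, 0) + x (3, 1) + x (3, 2) = -s := (sum3 _).symm.trans (hc 3)
  have i0 : x (0, 0) = 0 := hi 0
  have i1 : x (0, 1) = 0 := hi 1
  have i2 : x (0, 2) = 0 := hi 2
  have i3 : x (1, 0) = 0 := hi 3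
  have i4 : x (1, 1) = 0 := hi 4
  have i5 : x (2, 0) = 0 := hi 5
  have e0 : x (0, 0) = 0 := by linear_combination 1 * i0
  have e1 : x (0, 1) = 0 := by linear_combination 1 * i1
  have e2 : x (0, 2) = 0 := by linear_combination 1 * i2
  have e3 : x (1, 0) = 0 := by linear_combination 1 * i3
  have e4 : x (1, 1) = 0 := by linear_combination 1 * i4
  have e5 : x (1, 2) = 0 := by linear_combination 2 * c0 + 1 * c1 + 1 * i0 + 1 * i1 + 1 * i2 + 2 * i3 + 2 * i4 - ((1) * x (0, 0) + (1) * x (0, 1) + (1) * x (0, 2) + (1) * x (1, 0) + (1) * x (1, 1) + (1) * s) * h3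
  have e6 : x (2, 0) = 0 := by linear_combination 1 * i5
  have e7 : x (2, 1) = 0 := by linear_combination 1 * t1 + 2 * t5 + 2 * i1 + 1 * i2 + 2 * i3 + 1 * i4 + 1 * i5 - ((1) * x (0, 1) + (1) * x (0, 2) + (1) * x (1, 0) + (1) * x (1, 1) + (1) * x (2, 0) + (1) * x (3, 2) + (-1) * s) * h3
  have e8 : x (2, 2) = 0 := by linear_combination 1 * t1 + 1 * t2 + 2 * t3 + 2 * t5 + 1 * i0 + 2 * i1 + 1 * i3 + 2 * i4 + 1 * i5 - ((1) * x (0, 0) + (1) * x (0, 1) + (1) * x (0, 2) + (1) * x (1, 0) + (2) * x (1, 1) + (1) * x (2, 0) + (1) * x (2, 1) + (1) * x (3, 1) + (1) * x (3, 2) + (-2) * s) * h3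
  have e9 : x (3, 0) = 0 := by linear_combination 1 * c0 + 1 * t0 + 1 * i0 + 2 * i1 + 2 * i2 + 2 * i3 + 2 * i5 - ((1) * x (0, 0) + (1) * x (0, 1) + (1) * x (0, 2) + (1) * x (1, 0) + (1) * x (2, 0)) * h3
  have e10 : x (3, 1) = 0 := by linear_combination 1 * c0 + 2 * t1 + 1 * t3 + 1 * t5 + 1 * i0 + 1 * i2 + 1 * i3 + 1 * i4 + 2 * i5 - ((1) * x (0, 0) + (1) * x (0, 1) + (1) * x (0, 2) + (1) * x (1, 0) + (1) * x (1, 1) + (1) * x (2, 0) + (1) * x (2, 1) + (1) * x (3, 2) + (-1) * s) * h3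
  have e11 : x (3, 2) = 0 := by linear_combination 1 * c0 + 1 * t5 + 2 * i0 + 2 * i1 + 1 * i2 + 2 * i4 + 2 * i5 - ((1) * x (0, 0) + (1) * x (0, 1) + (1) * x (0, 2) + (1) * x (1, 1) + (1) * x (2, 0)) * h3
  funext ⟨i, r⟩
  fin_cases i <;> fin_cases r <;> assumption

theorem ternarySupport_vec {v : ℕ} (hv : ∀ i, i < 12 → img 2 v i < 3) :
    ternarySupport (K3.vec aE v) = aE.ofMask (Ops.supp 2 12 v) := K3.filter_vec aE hv

theorem supp_lt (w n v : ℕ) : Ops.supp w n v < 2 ^ n :=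
  Nat.lt_pow_two_of_testBit _ fun i hi => Bool.eq_false_iff.mpr fun h => by
    obtain ⟨j, hj, h1⟩ := (testBit_orLt _ _ _).mp h
    rw [b2n_eq, show ∀ a b, Nat.shiftLeft a b = a <<< b from fun _ _ => rfl] at h1
    split_ifs at h1
    · rw [Nat.one_shiftLeft, Nat.testBit_two_pow, decide_eq_true_eq] at h1
      omega
    · simp at h1

/-- The ternary code words. -/
def tw (m : ℕ) : ℕ := (primeOps 3).cwd 3 2 12 6 tB m

theorem ncard_ternary (k : ℕ) : {x | x ∈ ternaryGolayCode ∧ (ternarySupport x).card = k}.ncard =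
    countLt 729 fun m => Nat.beq (pc 12 (Ops.supp 2 12 (tw m))) k := by
  rw [ternary_eq]
  exact K3.ncard_code aE tOK K3_surj (fun v => Nat.beq (pc 12 (Ops.supp 2 12 v)) k) (fun _ h => h.1)
    fun v hv h => by
      rw [Set.mem_ofPred_eq, ternarySupport_vec hv, aE.card_ofMask, Nat.beq_eq]
      simp [h]

/-- The masks of the hexads. -/
def tH : List ℕ := [0x3f, 0xde, 0xed, 0xf3, 0x15b, 0x16e, 0x175, 0x19d, 0x1ab, 0x1b6, 0x1c7, 0x1f8, 0x24f, 0x276, 0x279, 0x29b, 0x2a7, 0x2bc, 0x2d5, 0x2ea, 0x317, 0x32d, 0x33a, 0x35c, 0x363, 0x38e, 0x3b1, 0x3c9, 0x3d2, 0x3e4, 0x45d, 0x467, 0x47a, 0x497, 0x4ae, 0x4b9, 0x4cb, 0x4f4, 0x50f, 0x533, 0x53c, 0x556, 0x569, 0x59a, 0x5a5, 0x5cc, 0x5d1, 0x5e2, 0x61e, 0x62b, 0x635, 0x653, 0x66c, 0x68d, 0x6b2, 0x6c6, 0x6d8, 0x6e1, 0x719, 0x726, 0x745, 0x74a, 0x770, 0x783, 0x794, 0x7a8, 0x857, 0x86b, 0x87c, 0x88f, 0x8b5, 0x8ba, 0x8d9, 0x8e6, 0x91e, 0x927, 0x939, 0x94d,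 0x972, 0x993, 0x9ac, 0x9ca, 0x9d4, 0x9e1, 0xa1d, 0xa2e, 0xa33, 0xa5a, 0xa65, 0xa96, 0xaa9, 0xac3, 0xacc, 0xaf0, 0xb0b, 0xb34, 0xb46, 0xb51, 0xb68, 0xb85, 0xb98, 0xba2, 0xc1b, 0xc2d, 0xc36, 0xc4e, 0xc71, 0xc9c, 0xca3, 0xcc5, 0xcd2, 0xce8, 0xd15, 0xd2a, 0xd43, 0xd58, 0xd64, 0xd86, 0xd89, 0xdb0, 0xe07, 0xe38, 0xe49, 0xe54, 0xe62, 0xe8a, 0xe91, 0xea4, 0xf0c, 0xf12, 0xf21, 0xfc0]

/-- The hexads of the ternary code. -/
abbrev tHex : Set (Finset ArrayPt) :=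
  {h | ∃ x ∈ ternaryGolayCode, ternarySupport x = h ∧ h.card = 6}

theorem tH_lt : ∀ m ∈ tH, m < 2 ^ 12 := fun m hm =>
  Nat.blt_eq.mp (allL_iff.mp (by decide +kernel : allL tH (fun m => Nat.blt m 4096) = true) m hm)

theorem mem_tHex {h : Finset ArrayPt} : h ∈ tHex ↔ aE.toMask h ∈ tH := by
  rw [tHex, ternary_eq]
  constructor
  · rintro ⟨x, hx, rfl, h1⟩
    obtain ⟨m, hm, rfl⟩ := K3.exists_cwd aE tOK K3_surj hx
    rw [ternarySupport_vec (K3.cwd_lt tOK m)] at h1 ⊢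
    rw [aE.card_ofMask] at h1
    rw [aE.toMask_ofMask (supp_lt _ _ _)]
    have h2 : allLt 729 (fun m => bimp (Nat.beq (pc 12 (Ops.supp 2 12 (tw m))) 6)
      (memL tH (Ops.supp 2 12 (tw m)))) = true := by decide +kernel
    exact memL_iff.mp ((bimp_iff _ _).mp (allLt_iff.mp h2 m hm) (Nat.beq_eq.mpr h1))
  · intro h1
    have h2 : allL [134, 393, 289, 410, 439, 318, 335, 154, 32, 102, 269, 459, 284, 429, 379, 112, 17, 117, 415, 276, 97, 37, 141, 369, 247, 51, 83, 299, 327, 252, 479, 259, 354, 95, 39, 137, 301, 342, 49, 85, 144, 417, 272, 114, 10, 279, 325, 249, 156, 34, 100, 332, 306, 47, 87, 264, 432, 245, 110, 12, 262, 303, 405, 5, 90, 27, 346, 305, 441, 43, 91, 138, 353, 255, 120, 14, 109, 307, 330, 89, 45, 273, 423, 244, 146, 48, 86, 462, 263, 105, 29, 250, 315, 324, 35, 99, 258, 407, 270, 11, 135, 3, 142, 38, 96, 294, 406, 126, 4, 254, 411, 297, 101, 33, 248, 378, 261, 15, 28, 81,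 13, 108, 271, 333, 246, 30, 82, 9, 36, 84, 1, 243] (fun m => memL tH (Ops.supp 2 12 (tw m))) = true ∧ allL tH (fun a => band (Nat.beq (pc 12 a) 6) (memL ([134, 393, 289, 410, 439, 318, 335, 154, 32, 102, 269, 459, 284, 429, 379, 112, 17, 117, 415, 276, 97, 37, 141, 369, 247, 51, 83, 299, 327, 252, 479, 259, 354, 95, 39, 137, 301, 342, 49, 85, 144, 417, 272, 114, 10, 279, 325, 249, 156, 34, 100, 332, 306, 47, 87, 264, 432, 245, 110, 12, 262, 303, 405, 5, 90, 27, 346, 305, 441, 43, 91, 138, 353, 255, 120, 14, 109, 307, 330, 89, 45, 273, 423, 244, 146, 48, 86, 462, 263, 105, 29, 250, 315, 324, 35, 99, 258, 407, 270, 11, 135, 3, 142, 38, 96, 294, 406, 126, 4, 254, 411, 297, 101, 33, 248, 378, 261, 15, 28, 81, 13, 108, 271, 333, 246, 30, 82, 9, 36, 84, 1, 243].map fun m => Ops.supp 2 12 (tw m)) a)) = true := by decide +kernel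
    have h3 := allL_iff.mp h2.2 _ h1
    rw [band_eq, Bool.and_eq_true, Nat.beq_eq, memL_iff, List.mem_map] at h3
    obtain ⟨h4, m, -, h5⟩ := h3
    refine ⟨_, K3.vec_cwd_mem aE tOK m, ?_, ?_⟩
    · rw [ternarySupport_vec (K3.cwd_lt tOK m), ← aE.ofMask_toMask h, ← h5]; rfl
    · rw [← aE.ofMask_toMask h, aE.card_ofMask, h4]

theorem ofMask_mem_tHex {m : ℕ} (hm : m < 2 ^ 12) : aE.ofMask m ∈ tHex ↔ m ∈ tH := by
  rw [mem_tHex, aE.toMask_ofMask hm]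

theorem ternary_signs (c : ArrayPt → (ZMod 3)ˣ)
    (h : ∀ x ∈ ternaryGolayCode, monomialMap 1 c x ∈ ternaryGolayCode) :
    (∀ p, c p = 1) ∨ (∀ p, c p = -1) := by
  rw [ternary_eq] at h
  obtain ⟨m, hm, h1, h2⟩ := K3.exists_units aE K3_surj c
  have h3 : allLt 4096 (fun m => bimp ((primeOps 3).monOK 2 12 6 tB tI 4 (idc 12 4) (dig 2 2 12 1 m))
    (bor (Nat.beq m 0) (Nat.beq m 4095))) = true := by decide +kernel
  have h4 := (bimp_iff _ _).mp (allLt_iff.mp h3 m hm) ((K3.monOK_iff aE tOK Enc.rep_one h1 h2).mp h)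
  rw [bor_eq, Bool.or_eq_true, Nat.beq_eq, Nat.beq_eq] at h4
  rcases h4 with rfl | rfl
  · exact Or.inl fun p => Units.ext ((h2 p).trans (by revert p; decide +kernel))
  · exact Or.inr fun p => Units.ext ((h2 p).trans (by revert p; decide +kernel))

end Cfsg.Agent.H4
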